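import Mathlib
import Cfsg.Agent.GeoPrime.Core
import Cfsg.Agent.GeoPrime.Descent

/-!
Rational frames for a symmetric form with integral discriminant, in odd dimension.
-/

set_option autoImplicit false

namespace CfsgLib.GeoPrime.Orth

open Matrix

variable {n : ℕ} {F : Type*} [Field F]

/-- The Gram matrix of a non-degenerate symmetric form with integral determinant, outside characteristic two. -/
structure ODat (A : Matrix (Fin n) (Fin n) F) : Prop where
  symm : Aᵀ = A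
  det_ne : A.det ≠ 0
  det_int : ∃ z : ℤ, A.det = (z : F)
  two : (2 : F) ≠ 0

/-- The matrix preserves the form. -/
def Ort (A : Matrix (Fin n) (Fin n) F) (g : GL (Fin n) F) : Prop :=
  (g : Matrix (Fin n) (Fin n) F)ᵀ * A * (g : Matrix (Fin n) (Fin n) F) = A

theorem det_mem {F₁ : Subfield F} {M : Matrix (Fin n) (Fin n) F} (h : ∀ i j, M i j ∈ F₁) : M.det ∈ F₁ := by
  rw [show M = (Matrix.of fun i j => (⟨M i j, h i j⟩ : F₁)).map F₁.subtype from rfl, ← RingHom.mapMatrix_apply,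
    ← RingHom.map_det]
  exact SetLike.coe_mem _

theorem scalar_unit (a : F) (ha : a ≠ 0) :
    ∃ z : GL (Fin n) F, (z : Matrix (Fin n) (Fin n) F) = a • 1 ∧ ∀ g : GL (Fin n) F, z⁻¹ * g * z = g := by
  obtain ⟨z, hz⟩ : ∃ z : GL (Fin n) F, (z : Matrix (Fin n) (Fin n) F) = a • 1 :=
    ⟨⟨a • 1, a⁻¹ • 1, by rw [smul_mul_smul_comm, one_mul, mul_inv_cancel₀ ha, one_smul],
      by rw [smul_mul_smul_comm, one_mul, inv_mul_cancel₀ ha, one_smul]⟩, rfl⟩
  refine ⟨z, hz, fun g => ?_⟩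
  rw [mul_assoc, inv_mul_eq_iff_eq_mul]
  exact Units.ext (by rw [Units.val_mul, Units.val_mul, hz, mul_smul_comm, smul_mul_assoc, mul_one, one_mul])

/-- A frame whose Gram matrix is a multiple of a rational one can be scaled to a rational one. -/
theorem scale_rational {A : Matrix (Fin n) (Fin n) F} (d : ODat A) (hn : Odd n) {F₁ : Subfield F}
    (P : GL (Fin n) F) {c : F} {A' : Matrix (Fin n) (Fin n) F} (hA' : ∀ i j, A' i j ∈ F₁)
    (hM : (P : Matrix (Fin n) (Fin n) F)ᵀ * A * (P : Matrix (Fin n) (Fin n) F) = c • A') :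
    ∃ Q : GL (Fin n) F,
      (∀ i j, ((Q : Matrix (Fin n) (Fin n) F)ᵀ * A * (Q : Matrix (Fin n) (Fin n) F)) i j ∈ F₁) ∧
      ∀ g, g ∈ Cfsg.Geo.subfieldSubgroup F₁ P → g ∈ Cfsg.Geo.subfieldSubgroup F₁ Q := by
  obtain ⟨z, hz⟩ := d.det_int
  obtain ⟨k, hk⟩ := hn
  set dP := (P : Matrix (Fin n) (Fin n) F).det
  have hdP : dP ≠ 0 := (P.isUnit.map Matrix.detMonoidHom).ne_zero
  have hdet : dP * A.det * dP = c ^ n * A'.det := by
    have := congrArg Matrix.det hM
    rwa [Matrix.det_mul, Matrix.det_mul, Matrix.det_transpose, Matrix.det_smul, Fintype.card_fin] at this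
  have hne : c ^ n * A'.det ≠ 0 := hdet ▸ mul_ne_zero (mul_ne_zero hdP d.det_ne) hdP
  have hd' : A'.det ≠ 0 := right_ne_zero_of_mul hne
  have hc : c ≠ 0 := fun h => hne (by rw [h, zero_pow (by omega), zero_mul])
  set a := c ^ k / dP with ha
  have hac : a ^ 2 * c = A.det / A'.det := by
    rw [ha, div_pow, div_mul_eq_mul_div, div_eq_div_iff (pow_ne_zero _ hdP) hd',
      show (c ^ k) ^ 2 * c = c ^ n by rw [hk, ← pow_mul, ← pow_succ]; ring_nf]
    linear_combination -hdet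
  obtain ⟨s, hs, hsc⟩ := scalar_unit (n := n) a (div_ne_zero (pow_ne_zero _ hc) hdP)
  refine ⟨P * s, fun i j => ?_, fun g hg => ?_⟩
  · rw [Units.val_mul, hs, mul_smul_comm, mul_one, Matrix.transpose_smul, smul_mul_assoc, smul_mul_assoc,
      mul_smul_comm, smul_smul, hM, smul_smul, ← sq, hac, Matrix.smul_apply, smul_eq_mul]
    exact F₁.mul_mem (F₁.div_mem (hz ▸ intCast_mem F₁ z) (det_mem hA')) (hA' i j)
  · rw [mem_subfieldSubgroup] at hg ⊢
    rwa [show (P * s)⁻¹ * g * (P * s) = s⁻¹ * (P⁻¹ * g * P) * s by group, hsc]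

/-- The invariant form of an absolutely irreducible group realised over a subfield is rational up to a scalar. -/
theorem gram_rational [NeZero n] {A : Matrix (Fin n) (Fin n) F} (d : ODat A) {P : Subgroup (GL (Fin n) F)}
    (hP : Cfsg.Geo.ActsAbsolutelyIrreducibly (Cfsg.Geo.matrixSet P)) (hO : ∀ x ∈ P, Ort A x) {F₁ : Subfield F}
    {B : GL (Fin n) F}
    (hB : ∀ x ∈ P, ∀ i j, ((B * x * B⁻¹ : GL (Fin n) F) : Matrix (Fin n) (Fin n) F) i j ∈ F₁) :
    ∃ (c : F) (A' : Matrix (Fin n) (Fin n) F), (∀ i j, A' i j ∈ F₁) ∧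
      ((B⁻¹ : GL (Fin n) F) : Matrix (Fin n) (Fin n) F)ᵀ * A * ((B⁻¹ : GL (Fin n) F) : Matrix (Fin n) (Fin n) F) =
        c • A' := by
  classical
  set Bi := ((B⁻¹ : GL (Fin n) F) : Matrix (Fin n) (Fin n) F)
  set M := Biᵀ * A * Bi with hM
  have hMu : IsUnit M.det := by
    rw [isUnit_iff_ne_zero, hM, Matrix.det_mul, Matrix.det_mul, Matrix.det_transpose]
    exact mul_ne_zero (mul_ne_zero ((B⁻¹).isUnit.map Matrix.detMonoidHom).ne_zero d.det_ne)
      ((B⁻¹).isUnit.map Matrix.detMonoidHom).ne_zero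
  have hfix : ∀ x ∈ P, ((B * x * B⁻¹ : GL (Fin n) F) : Matrix (Fin n) (Fin n) F)ᵀ * M *
      ((B * x * B⁻¹ : GL (Fin n) F) : Matrix (Fin n) (Fin n) F) = M := by
    intro x hx
    have h1 : (B : Matrix (Fin n) (Fin n) F)ᵀ * Biᵀ = 1 := by
      rw [← Matrix.transpose_mul, show Bi * (B : Matrix (Fin n) (Fin n) F) = 1 from B.inv_mul, Matrix.transpose_one]
    have h2 : Bi * (B : Matrix (Fin n) (Fin n) F) = 1 := B.inv_mul
    rw [Units.val_mul, Units.val_mul, Matrix.transpose_mul, Matrix.transpose_mul, hM]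
    calc Biᵀ * ((x : Matrix (Fin n) (Fin n) F)ᵀ * (B : Matrix (Fin n) (Fin n) F)ᵀ) * (Biᵀ * A * Bi) *
          ((B : Matrix (Fin n) (Fin n) F) * x * Bi)
        = Biᵀ * ((x : Matrix (Fin n) (Fin n) F)ᵀ * (((B : Matrix (Fin n) (Fin n) F)ᵀ * Biᵀ) * A *
            (Bi * (B : Matrix (Fin n) (Fin n) F))) * (x : Matrix (Fin n) (Fin n) F)) * Bi := by
          simp only [mul_assoc]
      _ = Biᵀ * A * Bi := by rw [h1, h2, one_mul, mul_one, hO x hx]
  obtain ⟨i0, j0, hij⟩ : ∃ i j, M i j ≠ 0 := by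
    by_contra hc
    push Not at hc
    rw [show M = 0 from Matrix.ext fun i j => hc i j, Matrix.det_zero] at hMu
    exact not_isUnit_zero hMu
  obtain ⟨π, hπ⟩ : ∃ π : Module.Dual F₁ F, π (M i0 j0) ≠ 0 := by
    by_contra hc
    push Not at hc
    exact hij ((Module.forall_dual_apply_eq_zero_iff F₁ _).mp hc)
  let A' : Matrix (Fin n) (Fin n) F := fun i j => ((π (M i j) : F₁) : F)
  have hlin : ∀ (r s v : F), r ∈ F₁ → s ∈ F₁ → ((π (r * v * s) : F₁) : F) = r * (π v : F) * s := by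
    intro r s v hr hs
    rw [show r * v * s = ((⟨r, hr⟩ : F₁) * ⟨s, hs⟩) • v from by
      show r * v * s = (r * s) * v
      ring, map_smul, smul_eq_mul, Subfield.coe_mul, Subfield.coe_mul]
    ring
  have hA'fix : ∀ x ∈ P, ((B * x * B⁻¹ : GL (Fin n) F) : Matrix (Fin n) (Fin n) F)ᵀ * A' *
      ((B * x * B⁻¹ : GL (Fin n) F) : Matrix (Fin n) (Fin n) F) = A' := by
    intro x hx
    ext i k
    have h3 := congrFun (congrFun (hfix x hx) i) k
    show _ = ((π (M i k) : F₁) : F)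
    rw [← h3]
    simp only [Matrix.mul_apply, Finset.sum_mul, map_sum, AddSubmonoidClass.coe_finsetSum, Matrix.transpose_apply]
    refine Finset.sum_congr rfl fun j _ => Finset.sum_congr rfl fun l _ => ?_
    rw [hlin _ _ _ (hB x hx l i) (hB x hx j k)]
  obtain ⟨c, hc⟩ := hP.2 (Bi * (M⁻¹ * A') * (B : Matrix (Fin n) (Fin n) F)) (by
    rintro _ ⟨x, hx, rfl⟩
    set X := ((B * x * B⁻¹ : GL (Fin n) F) : Matrix (Fin n) (Fin n) F) with hX
    have hXu : IsUnit Xᵀ := (Matrix.isUnit_iff_isUnit_det _).mpr (by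
      rw [Matrix.det_transpose]; exact (Matrix.isUnit_iff_isUnit_det _).mp (B * x * B⁻¹).isUnit)
    have hcomm : M⁻¹ * A' * X = X * (M⁻¹ * A') := by
      have h1 : A' * X = M * (X * (M⁻¹ * A')) := hXu.mul_left_cancel (by
        rw [← mul_assoc, hA'fix x hx, ← mul_assoc, ← mul_assoc, hfix x hx, ← mul_assoc, Matrix.mul_nonsing_inv _ hMu,
          one_mul])
      rw [mul_assoc, h1, ← mul_assoc, Matrix.nonsing_inv_mul _ hMu, one_mul]
    have hx' : (x : Matrix (Fin n) (Fin n) F) = Bi * X * (B : Matrix (Fin n) (Fin n) F) := by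
      rw [hX, ← Units.val_mul, ← Units.val_mul]; simp [mul_assoc]
    show Bi * (M⁻¹ * A') * (B : Matrix (Fin n) (Fin n) F) * (x : Matrix (Fin n) (Fin n) F) =
      (x : Matrix (Fin n) (Fin n) F) * (Bi * (M⁻¹ * A') * (B : Matrix (Fin n) (Fin n) F))
    rw [hx']
    have h2 : (B : Matrix (Fin n) (Fin n) F) * Bi = 1 := B.mul_inv
    calc Bi * (M⁻¹ * A') * (B : Matrix (Fin n) (Fin n) F) * (Bi * X * (B : Matrix (Fin n) (Fin n) F))
        = Bi * ((M⁻¹ * A') * ((B : Matrix (Fin n) (Fin n) F) * Bi) * X) * B := by simp only [mul_assoc]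
      _ = Bi * (X * ((B : Matrix (Fin n) (Fin n) F) * Bi) * (M⁻¹ * A')) * B := by rw [h2, mul_one, mul_one, hcomm]
      _ = _ := by simp only [mul_assoc])
  have hA'eq : A' = c • M := by
    have h2 : (B : Matrix (Fin n) (Fin n) F) * Bi = 1 := B.mul_inv
    calc A' = M * (M⁻¹ * A') := by rw [← mul_assoc, Matrix.mul_nonsing_inv _ hMu, one_mul]
      _ = M * ((B : Matrix (Fin n) (Fin n) F) * (Bi * (M⁻¹ * A') * (B : Matrix (Fin n) (Fin n) F)) * Bi) := by
          congr 1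
          calc M⁻¹ * A' = ((B : Matrix (Fin n) (Fin n) F) * Bi) * (M⁻¹ * A') * ((B : Matrix (Fin n) (Fin n) F) * Bi) := by
                rw [h2, one_mul, mul_one]
            _ = _ := by simp only [mul_assoc]
      _ = c • M := by rw [hc, mul_smul_comm, mul_one, smul_mul_assoc, h2, mul_smul_comm, mul_one]
  have hc0 : c ≠ 0 := fun h0 => hπ (Subtype.ext (by
    have := congrFun (congrFun hA'eq i0) j0
    simpa [A', h0] using this))
  exact ⟨c⁻¹, A', fun i j => SetLike.coe_mem _, by rw [hA'eq, smul_smul, inv_mul_cancel₀ hc0, one_smul]⟩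

end CfsgLib.GeoPrime.Orth
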