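import Mathlib
import Cfsg.Agent.GeoPrime.Orth.Gram

/-!
In odd dimension no field of full degree contains a non-scalar isometry.
-/

set_option autoImplicit false

namespace CfsgLib.GeoPrime.Orth

open Matrix

variable {n : ℕ} {F : Type*} [Field F] [Fintype F]

theorem no_field_element {A : Matrix (Fin n) (Fin n) F} (d : ODat A) (hn : Odd n)
    {K : Subalgebra F (Matrix (Fin n) (Fin n) F)} (hK : Cfsg.Geo.IsFieldSubalgebra n K) {x : GL (Fin n) F}
    (hxK : (x : Matrix (Fin n) (Fin n) F) ∈ K) (hx : Ort A x) : x ∈ Cfsg.Geo.scalars (Fin n) F := by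
  classical
  haveI : NeZero n := ⟨by rintro rfl; simp at hn⟩
  letI : CommRing K := { (inferInstance : Ring K) with mul_comm := fun a b => Subtype.ext (hK.comm a a.2 b b.2) }
  haveI : Nontrivial K := ⟨0, 1, fun h => by
    have := congrArg (fun k : K => (k : Matrix (Fin n) (Fin n) F) 0 0) h
    simp at this⟩
  haveI : Fintype K := Fintype.ofFinite K
  haveI : NoZeroDivisors K := ⟨fun {a b} hab => or_iff_not_imp_left.mpr fun ha => by
    obtain ⟨y, hy, he⟩ := hK.inv a a.2 fun h => ha (Subtype.ext h)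
    exact ((IsUnit.of_mul_eq_one (⟨y, hy⟩ : K) (Subtype.ext he)).mul_right_eq_zero).mp hab⟩
  haveI : IsDomain K := NoZeroDivisors.to_isDomain K
  letI : Field K := Fintype.fieldOfDomain K
  set X := (x : Matrix (Fin n) (Fin n) F) with hX
  set a : K := ⟨X, hxK⟩ with ha
  have ha0 : a ≠ 0 := fun h => x.ne_zero (congrArg Subtype.val h)
  obtain ⟨y, hy, hye⟩ := hK.inv X hxK x.ne_zero
  set b : K := ⟨y, hy⟩ with hb
  have hab : a * b = 1 := Subtype.ext hye
  have hyX : y = ((x⁻¹ : GL (Fin n) F) : Matrix (Fin n) (Fin n) F) := by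
    calc y = ((x⁻¹ : GL (Fin n) F) : Matrix (Fin n) (Fin n) F) * (X * y) := by
          rw [← mul_assoc, hX, x.inv_mul, one_mul]
      _ = _ := by rw [hye, mul_one]
  have hAu : IsUnit A.det := isUnit_iff_ne_zero.mpr d.det_ne
  have hyA : y = A⁻¹ * Xᵀ * A := by
    calc y = (A⁻¹ * A) * y := by rw [Matrix.nonsing_inv_mul _ hAu, one_mul]
      _ = A⁻¹ * (Xᵀ * A * X) * y := by rw [hx, mul_assoc A⁻¹ A y]
      _ = A⁻¹ * Xᵀ * A * (X * y) := by simp only [mul_assoc]
      _ = _ := by rw [hye, mul_one]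
  have hpow : ∀ m : ℕ, y ^ m = A⁻¹ * (X ^ m)ᵀ * A := by
    intro m
    induction m with
    | zero => simp [Matrix.nonsing_inv_mul _ hAu]
    | succ m ih =>
      rw [pow_succ y, ih, hyA, pow_succ' X, Matrix.transpose_mul]
      calc A⁻¹ * (X ^ m)ᵀ * A * (A⁻¹ * Xᵀ * A) = A⁻¹ * (X ^ m)ᵀ * (A * A⁻¹) * Xᵀ * A := by simp only [mul_assoc]
        _ = _ := by rw [Matrix.mul_nonsing_inv _ hAu, mul_one]; simp only [mul_assoc]
  have haev : ∀ p : Polynomial F, Polynomial.aeval y p = A⁻¹ * (Polynomial.aeval X p)ᵀ * A := by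
    intro p
    induction p using Polynomial.induction_on' with
    | add p r hp hr => rw [map_add, map_add, hp, hr, Matrix.transpose_add, Matrix.mul_add, Matrix.add_mul]
    | monomial m c =>
      rw [Polynomial.aeval_monomial, Polynomial.aeval_monomial, hpow]
      simp [Algebra.algebraMap_eq_smul_one, Matrix.transpose_smul]
  have hval : ∀ (k : K) (p : Polynomial F), ((Polynomial.aeval k p : K) : Matrix (Fin n) (Fin n) F) =
      Polynomial.aeval (k : Matrix (Fin n) (Fin n) F) p := fun k p => Polynomial.aeval_subalgebra_coe p K k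
  have hint : IsIntegral F a := IsIntegral.of_finite F a
  have hroot : Polynomial.aeval b (minpoly F a) = 0 := by
    refine Subtype.ext ?_
    have h0 := congrArg Subtype.val (minpoly.aeval F a)
    rw [hval] at h0
    rw [hval]
    show Polynomial.aeval y (minpoly F a) = 0
    rw [haev, show Polynomial.aeval X (minpoly F a) = 0 from h0]
    simp
  have hmin : minpoly F b = minpoly F a :=
    (minpoly.eq_of_irreducible_of_monic (minpoly.irreducible hint) hroot (minpoly.monic hint)).symm
  obtain ⟨s, hs⟩ := (Normal.minpoly_eq_iff_mem_orbit (F := F) (E := K) (x := b) (y := a)).mp hmin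
  change s a = b at hs
  have hb' : b = a⁻¹ := eq_inv_of_mul_eq_one_right hab
  have hs2 : ∀ j : ℕ, (s ^ (2 * j)) a = a := by
    intro j
    induction j with
    | zero => rfl
    | succ j ih =>
      rw [Nat.mul_succ, pow_add, AlgEquiv.mul_apply, sq, AlgEquiv.mul_apply, hs, hb', map_inv₀, hs, hb', inv_inv, ih]
  obtain ⟨k, hk⟩ := hn
  have hord : s ^ (2 * k + 1) = 1 := by
    have hc : Nat.card (K ≃ₐ[F] K) = n := by rw [IsGalois.card_aut_eq_finrank, hK.finrank_eq]
    rw [show 2 * k + 1 = Nat.card (K ≃ₐ[F] K) by omega, pow_card_eq_one']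
  have hsa : b = a := by
    have := DFunLike.congr_fun hord a
    rw [pow_succ', AlgEquiv.mul_apply, hs2, hs] at this
    exact this
  have hsq : a * a = 1 := by rw [hsa] at hab; exact hab
  rcases mul_self_eq_one_iff.mp hsq with h | h
  · have e : X = 1 := congrArg Subtype.val h
    exact (Cfsg.Geo.mem_scalars_iff x).mpr ⟨1, by rw [Units.val_one, one_smul]; exact e⟩
  · have e : X = -1 := congrArg Subtype.val h
    exact (Cfsg.Geo.mem_scalars_iff x).mpr ⟨-1, by rw [Units.val_neg, Units.val_one, neg_one_smul]; exact e⟩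

end CfsgLib.GeoPrime.Orth
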