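import Mathlib
import Cfsg.Agent.GeoPrime.Orth.Gram
import Cfsg.Agent.GeoPrime.USubfield

/-!
Absolutely irreducible groups fixing a symmetric and a hermitian form are realisable over a proper subfield.
-/

set_option autoImplicit false

namespace CfsgLib.GeoPrime.Orth

open Matrix

variable {n : ℕ} {F : Type*} [Field F] [Fintype F] {σ : F ≃+* F}

/-- A group conjugate to its image under an involution is realisable over the fixed field. -/
theorem realisable_of_twist [NeZero n] (hne : σ ≠ RingEquiv.refl F) (hinv : ∀ a, σ (σ a) = a)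
    {P : Subgroup (GL (Fin n) F)} (hP : Cfsg.Geo.ActsAbsolutelyIrreducibly (Cfsg.Geo.matrixSet P))
    {S : Matrix (Fin n) (Fin n) F} (hSu : IsUnit S.det)
    (hconj : ∀ x ∈ P, conjMat σ (x : Matrix (Fin n) (Fin n) F) =
      S * (x : Matrix (Fin n) (Fin n) F) * S⁻¹) :
    ∃ F₀ : Subfield F, F₀ ≠ ⊤ ∧ Cfsg.Geo.RealisableOver F₀ (Cfsg.Geo.matrixSet P) := by
  classical
  let J : (Fin n → F) → (Fin n → F) := fun v => S⁻¹ *ᵥ (σ ∘ v)
  have hJadd : ∀ u v, J (u + v) = J u + J v := fun u v => by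
    simp only [J]
    rw [show σ ∘ (u + v) = σ ∘ u + σ ∘ v from funext fun i => map_add σ _ _, mulVec_add]
  have hJsmul : ∀ (a : F) v, J (a • v) = σ a • J v := fun a v => by
    simp only [J]
    rw [show σ ∘ (a • v) = σ a • (σ ∘ v) from funext fun i => map_mul σ _ _, mulVec_smul]
  have hJP : ∀ x ∈ P, ∀ v, J ((x : Matrix (Fin n) (Fin n) F) *ᵥ v) = (x : Matrix (Fin n) (Fin n) F) *ᵥ J v := by
    intro x hx v
    set X := (x : Matrix (Fin n) (Fin n) F)
    simp only [J]
    rw [conjMat_mulVec, hconj x hx, mulVec_mulVec, mulVec_mulVec, ← mul_assoc, ← mul_assoc,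
      Matrix.nonsing_inv_mul S hSu, one_mul]
  have hJ2 : ∀ v, J (J v) = (S⁻¹ * conjMat σ S⁻¹) *ᵥ v := fun v => by
    simp only [J]
    rw [conjMat_mulVec, mulVec_mulVec, show σ ∘ (σ ∘ v) = v from funext fun i => hinv (v i)]
  obtain ⟨c, hc⟩ := hP.2 (S⁻¹ * conjMat σ S⁻¹) (by
    rintro _ ⟨x, hx, rfl⟩
    refine Matrix.ext_iff_mulVec.mpr fun v => ?_
    beta_reduce
    calc (S⁻¹ * conjMat σ S⁻¹ * (x : Matrix (Fin n) (Fin n) F)) *ᵥ v
        = J (J ((x : Matrix (Fin n) (Fin n) F) *ᵥ v)) := by rw [hJ2, mulVec_mulVec]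
      _ = _ := by rw [hJP x hx, hJP x hx, hJ2, mulVec_mulVec])
  have hJ2c : ∀ v, J (J v) = c • v := fun v => by rw [hJ2, hc, smul_mulVec, one_mulVec]
  have hc0 : c ≠ 0 := by
    intro h0
    have := congrArg Matrix.det hc
    rw [h0, zero_smul, det_zero, det_mul,
      show (conjMat σ S⁻¹).det = σ S⁻¹.det from ((σ : F →+* F).map_det S⁻¹).symm] at this
    exact mul_ne_zero (IsUnit.ne_zero (Matrix.isUnit_nonsing_inv_det S hSu))
      ((map_ne_zero σ).mpr (IsUnit.ne_zero (Matrix.isUnit_nonsing_inv_det S hSu))) this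
  have hcfix : σ c = c := by
    let e : Fin n → F := Pi.single 0 1
    have he : J e ≠ 0 := fun h0 => by
      have := hJ2c e
      rw [h0, show J 0 = 0 from by simpa using hJsmul 0 0] at this
      have := congrFun this 0
      simp [e] at this
      exact hc0 this.symm
    have h1 : J (J (J e)) = σ c • J e := by rw [hJ2c e, hJsmul]
    rw [hJ2c (J e)] at h1
    exact (smul_left_injective F he h1).symm
  obtain ⟨m, hm0, hm⟩ := exists_norm_eq hne hinv hc0 hcfix
  let I : (Fin n → F) → (Fin n → F) := fun v => m⁻¹ • J v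
  have hIinv : ∀ v, I (I v) = v := fun v => by
    simp only [I]
    rw [hJsmul, hJ2c, smul_smul, smul_smul, map_inv₀, ← mul_inv, hm, inv_mul_cancel₀ hc0, one_smul]
  have hIsmul : ∀ (a : F) v, I (a • v) = σ a • I v := fun a v => by
    simp only [I]; rw [hJsmul, smul_comm]
  have hIadd : ∀ u v, I (u + v) = I u + I v := fun u v => by simp only [I]; rw [hJadd, smul_add]
  obtain ⟨ζ, hζ⟩ : ∃ ζ, σ ζ ≠ ζ := by
    by_contra h
    push Not at h
    exact hne (RingEquiv.ext h)
  let Fix : Set (Fin n → F) := {v | I v = v}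
  have hspan : Submodule.span F Fix = ⊤ := by
    refine eq_top_iff.mpr fun v _ => ?_
    have h1 : v + I v ∈ Submodule.span F Fix :=
      Submodule.subset_span (show I (v + I v) = v + I v by rw [hIadd, hIinv, add_comm])
    have h2 : ζ • v + σ ζ • I v ∈ Submodule.span F Fix :=
      Submodule.subset_span (show I (ζ • v + σ ζ • I v) = ζ • v + σ ζ • I v by
        rw [hIadd, hIsmul, hIsmul, hinv, hIinv, add_comm])
    have h3 := Submodule.smul_mem _ (ζ - σ ζ)⁻¹ (Submodule.sub_mem _ h2 (Submodule.smul_mem _ (σ ζ) h1))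
    have e : ζ • v + σ ζ • I v - σ ζ • (v + I v) = (ζ - σ ζ) • v := by
      rw [smul_add, sub_smul]; abel
    rwa [e, smul_smul, inv_mul_cancel₀ (sub_ne_zero.mpr (Ne.symm hζ)), one_smul] at h3
  obtain ⟨s, hsE, hsspan, hsli⟩ := exists_linearIndependent F Fix
  let b0 : Module.Basis s F (Fin n → F) :=
    Module.Basis.mk hsli (by rw [Subtype.range_coe_subtype, Set.setOf_mem_eq, hsspan, hspan])
  haveI := Fintype.ofFinite s
  have hcard : Fintype.card s = n := by
    rw [← Module.finrank_eq_card_basis b0, Module.finrank_fin_fun]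
  let b : Module.Basis (Fin n) F (Fin n → F) := b0.reindex ((Fintype.equivFin s).trans (finCongr hcard))
  have hbE : ∀ i, I (b i) = b i := fun i => by
    simp only [b, Module.Basis.reindex_apply, b0, Module.Basis.mk_apply]
    exact hsE (Subtype.prop _)
  refine ⟨RingHom.eqLocusField (σ : F →+* F) (RingHom.id F), fun h => hζ ?_, ?_⟩
  · have : ζ ∈ RingHom.eqLocusField (σ : F →+* F) (RingHom.id F) := h ▸ Subfield.mem_top ζ
    exact this
  obtain ⟨B, hB⟩ := exists_basisChange b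
  refine ⟨B, ?_⟩
  rintro _ ⟨x, hx, rfl⟩ i j
  rw [← Units.val_mul, ← Units.val_mul, hB]
  show σ _ = _
  set a := b.repr ((x : Matrix (Fin n) (Fin n) F) *ᵥ b j) with ha
  have h1 : I ((x : Matrix (Fin n) (Fin n) F) *ᵥ b j) = (x : Matrix (Fin n) (Fin n) F) *ᵥ b j := by
    conv_rhs => rw [← hbE j]
    simp only [I]
    rw [hJP x hx, mulVec_smul]
  let Iadd : (Fin n → F) →+ (Fin n → F) := AddMonoidHom.mk' I hIadd
  have h2 : I ((x : Matrix (Fin n) (Fin n) F) *ᵥ b j) = ∑ k, σ (a k) • b k := by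
    conv_lhs => rw [← b.sum_repr ((x : Matrix (Fin n) (Fin n) F) *ᵥ b j)]
    show Iadd _ = _
    rw [map_sum]
    exact Finset.sum_congr rfl fun k _ => by show I _ = _; rw [hIsmul, hbE]
  have h3 := congrArg (fun z => b.repr z i) (h2.symm.trans h1)
  simp only [b.repr_sum_self] at h3
  exact h3


theorem realisable_of_unitary [NeZero n] {A : Matrix (Fin n) (Fin n) F} (d : ODat A)
    {P : Subgroup (GL (Fin n) F)} (hP : Cfsg.Geo.ActsAbsolutelyIrreducibly (Cfsg.Geo.matrixSet P))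
    (hO : ∀ x ∈ P, Ort A x) {f : (Fin n → F) → (Fin n → F) → F} (hf : Cfsg.Geo.IsUnitaryForm σ f)
    (hfix : Cfsg.Geo.FixesForm (Cfsg.Geo.matrixSet P) f) :
    ∃ F₀ : Subfield F, F₀ ≠ ⊤ ∧ Cfsg.Geo.RealisableOver F₀ (Cfsg.Geo.matrixSet P) := by
  have hs := isSesq_of_unitary hf
  have hcomp : ∀ v : Fin n → F, σ ∘ (σ ∘ v) = v := fun v => funext fun i => hf.involutive (v i)
  obtain ⟨G, hG⟩ := exists_gram (f := fun u v => f u (σ ∘ v))
    ⟨fun u v w => hs.add_left u v _, fun c u v => hs.smul_left c u _,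
      fun u v w => by
        rw [show σ ∘ (v + w) = σ ∘ v + σ ∘ w from funext fun i => map_add σ _ _]; exact hs.add_right u _ _,
      fun c v x => by
        rw [show σ ∘ (c • x) = σ c • (σ ∘ x) from funext fun i => map_mul σ _ _, hs.smul_right, hf.involutive]⟩
  have hG' : ∀ u v, f u v = u ⬝ᵥ G *ᵥ (σ ∘ v) := fun u v => by
    have := hG u (σ ∘ v)
    simp only [hcomp] at this
    exact this
  have hGu : IsUnit G.det := by
    rw [isUnit_iff_ne_zero]
    intro h0
    obtain ⟨v, hv, hGv⟩ := Matrix.exists_mulVec_eq_zero_iff.mpr h0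
    have hw : σ ∘ v ≠ 0 := fun h => hv (by rw [← hcomp v, h]; funext i; simp)
    obtain ⟨x, hx⟩ := hs.right_ne _ hw
    exact hx (by rw [hG', hcomp, hGv, dotProduct_zero])
  have hAu : IsUnit A.det := isUnit_iff_ne_zero.mpr d.det_ne
  refine realisable_of_twist hf.ne_refl hf.involutive hP (S := G⁻¹ * A) (by
    rw [Matrix.det_mul]; exact IsUnit.mul (Matrix.isUnit_nonsing_inv_det G hGu) hAu) fun x hx => ?_
  set X := (x : Matrix (Fin n) (Fin n) F)
  have h1 : Xᵀ * G * conjMat σ X = G := matrix_eq_of_dot fun u w => by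
    rw [mul_assoc, ← mulVec_mulVec, ← mulVec_mulVec, dotProduct_mulVec u, vecMul_transpose]
    have hw : conjMat σ X *ᵥ w = σ ∘ (X *ᵥ (σ ∘ w)) := by rw [conjMat_mulVec, hcomp]
    rw [hw, ← hG', hfix _ ⟨x, hx, rfl⟩, hG', hcomp]
  have hX : IsUnit Xᵀ := (Matrix.isUnit_iff_isUnit_det _).mpr (by
    rw [det_transpose]; exact (Matrix.isUnit_iff_isUnit_det _).mp x.isUnit)
  have h2 : G * conjMat σ X * (G⁻¹ * A) = A * X := hX.mul_left_cancel (by
    simp only [← mul_assoc]
    rw [h1, Matrix.mul_nonsing_inv G hGu, one_mul]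
    exact (hO x hx).symm)
  have hinvS : (G⁻¹ * A)⁻¹ = A⁻¹ * G := by
    rw [Matrix.mul_inv_rev, Matrix.nonsing_inv_nonsing_inv G hGu]
  rw [hinvS]
  calc conjMat σ X = G⁻¹ * (G * conjMat σ X * (G⁻¹ * A)) * (A⁻¹ * G) := by
        simp only [← mul_assoc]
        rw [Matrix.nonsing_inv_mul G hGu, one_mul, mul_assoc (conjMat σ X * G⁻¹), Matrix.mul_nonsing_inv A hAu,
          mul_one, mul_assoc, Matrix.nonsing_inv_mul G hGu, mul_one]
    _ = _ := by rw [h2]; simp only [mul_assoc]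

end CfsgLib.GeoPrime.Orth
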