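import Mathlib
import Cfsg.Agent.GeoPrime.Clifford
import Cfsg.Agent.GeoPrime.Tools
import Cfsg.Agent.GeoPrime.Orth.Field
import Cfsg.Agent.GeoPrime.Orth.Twist

/-!
Irreducible groups of isometries of a symmetric form in odd prime dimension.
-/

set_option autoImplicit false

namespace CfsgLib.GeoPrime.Orth

open Matrix

variable {n : ℕ} {F : Type*} [Field F]

theorem form_ort {A : Matrix (Fin n) (Fin n) F} {g : GL (Fin n) F} (hg : Ort A g) (u v : Fin n → F) :
    ((g : Matrix (Fin n) (Fin n) F) *ᵥ u) ⬝ᵥ A *ᵥ ((g : Matrix (Fin n) (Fin n) F) *ᵥ v) = u ⬝ᵥ A *ᵥ v := by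
  set G := (g : Matrix (Fin n) (Fin n) F)
  have h : Gᵀ * A * G = A := hg
  conv_rhs => rw [← h, mul_assoc, ← mulVec_mulVec, ← mulVec_mulVec, dotProduct_mulVec u, vecMul_transpose]

theorem form_symm {A : Matrix (Fin n) (Fin n) F} (d : ODat A) (u v : Fin n → F) :
    u ⬝ᵥ A *ᵥ v = v ⬝ᵥ A *ᵥ u := by
  rw [dotProduct_mulVec, ← mulVec_transpose, d.symm, dotProduct_comm]

variable [Fintype F] {A : Matrix (Fin n) (Fin n) F}

/-- The eigenlines of a normal subgroup are orthogonal and of one isometry type. -/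
theorem lines_orth (d : ODat A) (hn : Odd n) [NeZero n] {H N : Subgroup (GL (Fin n) F)}
    (hirr : Cfsg.Geo.ActsIrreducibly (Cfsg.Geo.matrixSet H)) (hH : ∀ g ∈ H, Ort A g) (hN : ∀ g ∈ N, Ort A g)
    {b : Module.Basis (Fin n) F (Fin n → F)} (hb : H ≤ Cfsg.Geo.decompositionStabilizer (basisLines b))
    {l : Fin n → N → F} (hl : Function.Injective l)
    (he : ∀ i (x : N), (x.1 : Matrix (Fin n) (Fin n) F) *ᵥ b i = l i x • b i) :
    (∀ i j, i ≠ j → b i ⬝ᵥ A *ᵥ b j = 0) ∧ b 0 ⬝ᵥ A *ᵥ b 0 ≠ 0 ∧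
      ∀ i, ∃ a : F, a ≠ 0 ∧ b i ⬝ᵥ A *ᵥ b i = a ^ 2 * (b 0 ⬝ᵥ A *ᵥ b 0) := by
  classical
  let f : (Fin n → F) → (Fin n → F) → F := fun u v => u ⬝ᵥ A *ᵥ v
  have hsl : ∀ (c : F) u v, f (c • u) v = c * f u v := fun c u v => by simp [f, smul_dotProduct]
  have hsr : ∀ (c : F) u v, f u (c • v) = c * f u v := fun c u v => by simp [f, mulVec_smul, dotProduct_smul]
  have hchar : ∀ i j, f (b i) (b j) ≠ 0 → ∀ x : N, l i x * l j x = 1 := by
    intro i j hij x
    have h : f ((x.1 : Matrix (Fin n) (Fin n) F) *ᵥ b i) ((x.1 : Matrix (Fin n) (Fin n) F) *ᵥ b j) = f (b i) (b j) :=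
      form_ort (hN x x.2) _ _
    rw [he, he, hsl, hsr, ← mul_assoc] at h
    exact mul_right_cancel₀ hij (h.trans (one_mul _).symm)
  have huniq : ∀ i j k, f (b i) (b j) ≠ 0 → f (b i) (b k) ≠ 0 → j = k := by
    intro i j k hj hk
    refine hl (funext fun x => ?_)
    have h1 := hchar i j hj x
    have h0 : l i x ≠ 0 := fun h => by rw [h, zero_mul] at h1; exact zero_ne_one h1
    exact mul_left_cancel₀ h0 (h1.trans (hchar i k hk x).symm)
  have hex : ∀ i, ∃ j, f (b i) (b j) ≠ 0 := by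
    intro i
    by_contra h
    push Not at h
    obtain ⟨v, hv⟩ : ∃ v, f (b i) v ≠ 0 := by
      by_contra h'
      push Not at h'
      refine b.ne_zero i ?_
      have h1 : A *ᵥ b i = 0 := funext fun k => by
        have h2 := h' (Pi.single k 1)
        simp only [f] at h2
        rw [form_symm d, single_one_dotProduct] at h2
        exact h2
      by_contra hb0
      exact d.det_ne (Matrix.exists_mulVec_eq_zero_iff.mp ⟨_, hb0, h1⟩)
    apply hv
    rw [← b.sum_repr v]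
    simp only [f, mulVec_sum, dotProduct_sum]
    exact Finset.sum_eq_zero fun j _ => by
      rw [mulVec_smul, dotProduct_smul, show b i ⬝ᵥ A *ᵥ b j = 0 from h j, smul_zero]
  choose π hπ using hex
  have hinvol : ∀ i, π (π i) = i := fun i => huniq _ _ _ (hπ (π i)) (fun e => hπ i ((form_symm d _ _).trans e))
  have hequiv : ∀ g ∈ H, ∀ (τ : Equiv.Perm (Fin n)) (c : Fin n → F),
      (∀ i, (g : Matrix (Fin n) (Fin n) F) *ᵥ b i = c i • b (τ i)) → ∀ i, π (τ i) = τ (π i) := by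
    intro g hg τ c hc i
    refine huniq _ _ _ (hπ (τ i)) fun e => hπ i ?_
    have h : f ((g : Matrix (Fin n) (Fin n) F) *ᵥ b i) ((g : Matrix (Fin n) (Fin n) F) *ᵥ b (π i)) =
        f (b i) (b (π i)) := form_ort (hH g hg) _ _
    rw [hc, hc, hsl, hsr, e, mul_zero, mul_zero] at h
    exact h.symm
  obtain ⟨i0, hi0⟩ : ∃ i, π i = i := by
    by_contra h
    push Not at h
    let τ : Equiv.Perm (Fin n) := Function.Involutive.toPerm π hinvol
    have h2 : τ ^ 2 = 1 := Equiv.ext fun i => by rw [pow_two, Equiv.Perm.mul_apply]; exact hinvol i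
    have := Equiv.Perm.card_compl_support_modEq (p := 2) (n := 1) (σ := τ) (by simpa using h2)
    rw [show τ.support = Finset.univ from Finset.eq_univ_iff_forall.mpr fun i =>
      Equiv.Perm.mem_support.mpr (h i), Finset.compl_univ, Finset.card_empty, Fintype.card_fin] at this
    obtain ⟨k, hk⟩ := hn
    have h' : 0 % 2 = n % 2 := this
    omega
  have hall : ∀ (T : Set (Fin n)), (∀ g ∈ H, ∀ (τ : Equiv.Perm (Fin n)) (c : Fin n → F),
      (∀ i, c i ≠ 0) → (∀ i, (g : Matrix (Fin n) (Fin n) F) *ᵥ b i = c i • b (τ i)) → ∀ i ∈ T, τ i ∈ T) →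
      ∀ i0 ∈ T, ∀ i, i ∈ T := by
    intro T hT i0 hi0 i
    let S : Submodule F (Fin n → F) := Submodule.span F (b '' T)
    rcases (irreducible_iff H).mp hirr S (fun g hg v hv => by
      have : S.map (Matrix.toLin' (g : Matrix (Fin n) (Fin n) F)) ≤ S := by
        rw [Submodule.map_span_le]
        rintro _ ⟨j, hj, rfl⟩
        obtain ⟨c, τ, hc0, hc⟩ := exists_monomial (hb hg)
        rw [Matrix.toLin'_apply, hc]
        exact S.smul_mem _ (Submodule.subset_span ⟨τ j, hT g hg τ c hc0 hc j hj, rfl⟩)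
      exact this ⟨v, hv, by simp⟩) with h | h
    · exfalso
      have : b i0 ∈ S := Submodule.subset_span ⟨i0, hi0, rfl⟩
      rw [h, Submodule.mem_bot] at this
      exact b.ne_zero i0 this
    · by_contra hne
      have hm : b i ∈ S := h ▸ Submodule.mem_top
      exact b.linearIndependent.notMem_span_image (s := T) hne hm
  have hfix : ∀ i, π i = i := hall {i | π i = i} (fun g hg τ c _ hc i hi => by
    show π (τ i) = τ i
    rw [hequiv g hg τ c hc i, show π i = i from hi]) i0 hi0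
  have horth : ∀ i j, i ≠ j → f (b i) (b j) = 0 := fun i j hij => by
    by_contra h
    exact hij ((hfix i).symm.trans (huniq _ _ _ (hπ i) h))
  have hd0 : f (b 0) (b 0) ≠ 0 := by
    have h := hπ 0
    rwa [hfix 0] at h
  refine ⟨horth, hd0, hall {i | ∃ a : F, a ≠ 0 ∧ f (b i) (b i) = a ^ 2 * f (b 0) (b 0)}
    (fun g hg τ c hc0 hc i hi => ?_) 0 ⟨1, one_ne_zero, by rw [one_pow, one_mul]⟩⟩
  obtain ⟨a, ha0, ha⟩ := hi
  have h : f ((g : Matrix (Fin n) (Fin n) F) *ᵥ b i) ((g : Matrix (Fin n) (Fin n) F) *ᵥ b i) = f (b i) (b i) :=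
    form_ort (hH g hg) _ _
  rw [hc, hsl, hsr, ha] at h
  refine ⟨a / c i, div_ne_zero ha0 (hc0 i), ?_⟩
  rw [div_pow, div_mul_eq_mul_div, eq_div_iff (pow_ne_zero _ (hc0 i)), ← h]
  ring

/-- The subfield conclusion. -/
def SubfieldConcl (A : Matrix (Fin n) (Fin n) F) (H : Subgroup (GL (Fin n) F)) : Prop :=
  ∃ (F₁ : Subfield F) (r : ℕ) (Q : GL (Fin n) F), r.Prime ∧ F₁ ≠ ⊤ ∧ Fintype.card F = Nat.card F₁ ^ r ∧
    (∀ i j, ((Q : Matrix (Fin n) (Fin n) F)ᵀ * A * (Q : Matrix (Fin n) (Fin n) F)) i j ∈ F₁) ∧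
    H ≤ Cfsg.Geo.subfieldSubgroup F₁ Q

/-- Monomial isometries over a field which is not prime lie in a subfield group. -/
theorem lines_not_prime (d : ODat A) (hn : Odd n) [NeZero n] (hp : ¬ (Fintype.card F).Prime)
    {H : Subgroup (GL (Fin n) F)} (hH : ∀ g ∈ H, Ort A g) {b : Module.Basis (Fin n) F (Fin n → F)}
    (hb : H ≤ Cfsg.Geo.decompositionStabilizer (basisLines b)) (horth : ∀ i j, i ≠ j → b i ⬝ᵥ A *ᵥ b j = 0)
    (hd0 : b 0 ⬝ᵥ A *ᵥ b 0 ≠ 0) (hiso : ∀ i, ∃ a : F, a ≠ 0 ∧ b i ⬝ᵥ A *ᵥ b i = a ^ 2 * (b 0 ⬝ᵥ A *ᵥ b 0)) :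
    SubfieldConcl A H := by
  classical
  obtain ⟨p, hC⟩ := CharP.exists F
  obtain ⟨e, hpp, hcard⟩ := FiniteField.card F p
  haveI := Fact.mk hpp
  haveI : ExpChar F p := ExpChar.prime hpp
  have he : 1 < (e : ℕ) := by
    by_contra h
    exact hp (by rw [hcard, show (e : ℕ) = 1 by have := e.pos; omega, pow_one]; exact hpp)
  obtain ⟨F₁, r, -, hne, hr, hc⟩ := exists_prime_index_subfield (F₀ := frobFixed F p 1)
    (frobFixed_ne_top F p hpp.one_lt one_pos (by rw [hcard]; exact Nat.pow_lt_pow_right hpp.one_lt he))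
  choose a ha0 ha using hiso
  set v : Fin n → (Fin n → F) := fun i => (a i)⁻¹ • b i with hv
  have hvv : ∀ i j, v i ⬝ᵥ A *ᵥ v j = if i = j then b 0 ⬝ᵥ A *ᵥ b 0 else 0 := by
    intro i j
    simp only [hv, smul_dotProduct, mulVec_smul, dotProduct_smul, smul_eq_mul]
    rcases eq_or_ne i j with rfl | hij
    · rw [if_pos rfl, ha]; field_simp [ha0 i]
    · rw [if_neg hij, horth i j hij]; ring
  set P₀ : Matrix (Fin n) (Fin n) F := Matrix.of fun i j => v j i with hP₀
  have hcol : ∀ j, P₀ *ᵥ Pi.single j 1 = v j := fun j => by funext i; simp [P₀]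
  have hgram : P₀ᵀ * A * P₀ = (b 0 ⬝ᵥ A *ᵥ b 0) • (1 : Matrix (Fin n) (Fin n) F) := by
    ext i j
    rw [Matrix.smul_apply, Matrix.one_apply, smul_eq_mul, mul_ite, mul_one, mul_zero, ← hvv]
    simp only [P₀, Matrix.mul_apply, Matrix.transpose_apply, Matrix.of_apply, dotProduct, mulVec, Finset.mul_sum,
      Finset.sum_mul]
    rw [Finset.sum_comm]
    exact Finset.sum_congr rfl fun k _ => Finset.sum_congr rfl fun l _ => mul_assoc _ _ _
  have hPdet : P₀.det ≠ 0 := by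
    intro h0
    have h1 := congrArg Matrix.det hgram
    rw [Matrix.det_mul, h0, mul_zero, Matrix.det_smul, Matrix.det_one, mul_one, eq_comm] at h1
    exact pow_ne_zero _ hd0 h1
  set P := GeneralLinearGroup.mkOfDetNeZero P₀ hPdet with hP
  obtain ⟨Q, hQ, hQH⟩ := scale_rational d hn P (F₁ := F₁) (A' := 1) (fun i j => by
    rw [Matrix.one_apply]; split
    · exact F₁.one_mem
    · exact F₁.zero_mem) hgram
  refine ⟨F₁, r, Q, hr, hne, hc, hQ, fun g hg => hQH g ?_⟩
  obtain ⟨c, τ, hc0, hcτ⟩ := exists_monomial (hb hg)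
  set s : Fin n → F := fun i => (a i)⁻¹ * c i * a (τ i) with hs
  have hgv : ∀ i, (g : Matrix (Fin n) (Fin n) F) *ᵥ v i = s i • v (τ i) := fun i => by
    simp only [hv, hs, mulVec_smul, hcτ, smul_smul]
    congr 1
    field_simp [ha0 (τ i)]
  have hs1 : ∀ i, s i ∈ F₁ := fun i => by
    have h := form_ort (hH g hg) (v i) (v i)
    rw [hgv, smul_dotProduct, mulVec_smul, dotProduct_smul, hvv, hvv, if_pos rfl, if_pos rfl, smul_eq_mul,
      smul_eq_mul, ← mul_assoc] at h
    rcases mul_self_eq_one_iff.mp (mul_right_cancel₀ hd0 (h.trans (one_mul _).symm)) with e1 | e1 <;> rw [e1]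
    · exact F₁.one_mem
    · exact F₁.neg_mem F₁.one_mem
  set M : Matrix (Fin n) (Fin n) F := Matrix.of fun i j => if i = τ j then s j else 0
  have hM : ((P⁻¹ * g * P : GL (Fin n) F) : Matrix (Fin n) (Fin n) F) = M := by
    have h1 : (g : Matrix (Fin n) (Fin n) F) * P₀ = P₀ * M := by
      ext i j
      have h2 := congrFun (hgv j) i
      simp [mulVec, dotProduct, P₀, M, Matrix.mul_apply] at h2 ⊢
      rw [h2]; ring
    rw [Units.val_mul, Units.val_mul, mul_assoc, show (P : Matrix (Fin n) (Fin n) F) = P₀ from rfl, h1,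
      show P₀ = (P : Matrix (Fin n) (Fin n) F) from rfl, ← mul_assoc, P.inv_mul, one_mul]
  have hmem : ∀ i j, M i j ∈ F₁ := fun i j => by
    simp only [M, Matrix.of_apply]
    split
    · exact hs1 j
    · exact F₁.zero_mem
  let M₀ : Matrix (Fin n) (Fin n) F₁ := Matrix.of fun i j => ⟨M i j, hmem i j⟩
  have hM₀ : M₀.det ≠ 0 := fun h0 => by
    have h1 : M.det = 0 := by
      rw [show M = M₀.map F₁.subtype from rfl, ← RingHom.mapMatrix_apply, ← RingHom.map_det, h0, map_zero]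
    rw [← hM] at h1
    exact ((P⁻¹ * g * P).isUnit.map Matrix.detMonoidHom).ne_zero h1
  exact mem_subfieldSubgroup.mpr ⟨GeneralLinearGroup.mkOfDetNeZero M₀ hM₀, 1, by rw [hM, Units.val_one, one_smul]; rfl⟩

/-- The possibilities for an irreducible group of isometries. -/
theorem orth_core (d : ODat A) (hn : n.Prime) (hn3 : 3 ≤ n) {H : Subgroup (GL (Fin n) F)}
    (hH : ∀ g ∈ H, Ort A g) (hirr : Cfsg.Geo.ActsIrreducibly (Cfsg.Geo.matrixSet H)) [NeZero n] :
    ((Fintype.card F).Prime ∧ ∃ b : Module.Basis (Fin n) F (Fin n → F),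
      H ≤ Cfsg.Geo.decompositionStabilizer (basisLines b) ∧ (∀ i j, i ≠ j → b i ⬝ᵥ A *ᵥ b j = 0) ∧
      b 0 ⬝ᵥ A *ᵥ b 0 ≠ 0 ∧ ∀ i, ∃ a : F, a ≠ 0 ∧ b i ⬝ᵥ A *ᵥ b i = a ^ 2 * (b 0 ⬝ᵥ A *ᵥ b 0)) ∨
    SubfieldConcl A H ∨ Cfsg.Geo.InOrthogonalResidualClass H := by
  classical
  haveI : Nonempty (Fin n) := ⟨0⟩
  have hodd : Odd n := hn.odd_of_ne_two (by omega)
  have hHs : ¬ H ≤ Cfsg.Geo.scalars (Fin n) F := by
    intro hle
    let v : Fin n → F := Pi.single 0 1
    have hv : v ≠ 0 := fun h => by simpa [v] using congrFun h 0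
    rcases (irreducible_iff H).mp hirr (Submodule.span F {v}) (fun g hg w hw => by
      obtain ⟨c, -, hc⟩ := scalar_matrix (hle hg)
      rw [hc, smul_mulVec, one_mulVec]
      exact Submodule.smul_mem _ _ hw) with h | h
    · exact hv (by simpa using h)
    · have := congrArg (fun W : Submodule F (Fin n → F) => Module.finrank F W) h
      simp only [finrank_span_singleton hv, finrank_top, Module.finrank_fin_fun] at this
      omega
  obtain ⟨P, hM⟩ := exists_minNormal hHs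
  have hPO : ∀ x ∈ P, Ort A x := fun x hx => hH x (hM.le hx)
  rcases clifford_data hn hirr hM.normal with h | ⟨-, b, hle, l, hl, he⟩ | ⟨-, K, hK, -, hPK⟩ | hP
  · exact absurd h hM.not_scalar
  · obtain ⟨horth, hd0, hiso⟩ := lines_orth d hodd hirr hH hPO hle hl he
    by_cases hp : (Fintype.card F).Prime
    · exact Or.inl ⟨hp, b, hle, horth, hd0, hiso⟩
    · exact Or.inr (Or.inl (lines_not_prime d hodd hp hH hle horth hd0 hiso))
  · exact absurd (fun x hx => no_field_element d hodd hK (hPK x hx) (hPO x hx)) hM.not_scalar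
  have hc2 : ¬ ⁅P, P⁆ ≤ Cfsg.Geo.scalars (Fin n) F := by
    intro hle
    refine not_comm_of_absIrr hP hM.not_scalar fun x hx y hy => ?_
    obtain ⟨c, -, hc⟩ := scalar_matrix (commutator_scalar_iff.mp hle x hx y hy)
    have hdet : c ^ n = 1 := by
      have h := congrArg Matrix.det hc
      rw [Matrix.det_smul, Matrix.det_one, mul_one, Fintype.card_fin] at h
      rw [← h, ← GeneralLinearGroup.val_det_apply, map_mul, map_mul, map_mul, map_inv, map_inv]
      simp
    have hz : Ort A (x * y * x⁻¹ * y⁻¹) :=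
      hPO _ (P.mul_mem (P.mul_mem (P.mul_mem hx hy) (P.inv_mem hx)) (P.inv_mem hy))
    have hsq : c ^ 2 = 1 := by
      obtain ⟨i, j, hij⟩ : ∃ i j, A i j ≠ 0 := by
        by_contra h
        push Not at h
        exact d.det_ne (by rw [show A = 0 from Matrix.ext fun i j => h i j, Matrix.det_zero])
      unfold Ort at hz
      rw [hc] at hz
      have h := congrFun (congrFun hz i) j
      simp only [Matrix.transpose_smul, Matrix.transpose_one, smul_mul_assoc, mul_smul_comm, one_mul, mul_one,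
        Matrix.smul_apply, smul_eq_mul, ← mul_assoc] at h
      rw [sq]
      exact mul_right_cancel₀ hij (h.trans (one_mul _).symm)
    have hc1 : c = 1 := by
      obtain ⟨k, hk⟩ := hodd
      rw [hk, pow_succ, pow_mul, hsq, one_pow, one_mul] at hdet
      exact hdet
    rw [hc1, one_smul] at hc
    have h1 : x * y * x⁻¹ * y⁻¹ = 1 := Units.ext (by rw [hc, Units.val_one])
    rw [mul_inv_eq_one, mul_inv_eq_iff_eq_mul] at h1
    exact h1
  have hperf := hM.perfect hc2
  by_cases hsub : ∃ F₀ : Subfield F, F₀ ≠ ⊤ ∧ Cfsg.Geo.RealisableOver F₀ (Cfsg.Geo.matrixSet P)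
  · obtain ⟨F₀, hne0, B, hB⟩ := hsub
    obtain ⟨F₁, r, hle, hne, hr, hc⟩ := exists_prime_index_subfield hne0
    have hB' : ∀ x ∈ P, ∀ i j, ((B * x * B⁻¹ : GL (Fin n) F) : Matrix (Fin n) (Fin n) F) i j ∈ F₁ := by
      intro x hx i j
      have h := hB _ ⟨x, hx, rfl⟩ i j
      exact hle (by simpa [Units.val_mul] using h)
    obtain ⟨c, A', hA', hgram⟩ := gram_rational d hP hPO hB'
    obtain ⟨Q, hQ, hQH⟩ := scale_rational d hodd B⁻¹ hA' hgram
    exact Or.inr (Or.inl ⟨F₁, r, Q, hr, hne, hc, hQ,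
      fun g hg => hQH g (mem_subfield_of_realised hP (hM.normal g hg) F₁ B hB')⟩)
  push Not at hsub
  refine Or.inr (Or.inr ⟨P, residual_core hn hM hP hperf hsub, ?_⟩)
  rintro ⟨σ, f, hf, hfix⟩
  obtain ⟨F₀, hne, hR⟩ := realisable_of_unitary d hP hPO hf hfix
  exact hsub F₀ hne hR

end CfsgLib.GeoPrime.Orth
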