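import Mathlib
import Cfsg.Agent.GeoPrime.Proper
import Cfsg.Agent.Forms.GeoBridge

/-!
`Ω` of an isotropic quadratic form lies in none of the overgroups used in odd dimension.
-/

set_option autoImplicit false

namespace CfsgLib.GeoPrime.Orth

open QuadraticMap Matrix
open CfsgLib.Forms (perp mem_perp mem_perp_span finrank_perp perp_perp map_add_smul)

variable {F : Type*} [Field F] [Fintype F] {ι : Type} [Fintype ι] [DecidableEq ι]
  {Q : QuadraticForm F (ι → F)}

omit [Fintype F] [DecidableEq ι] in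
theorem finrank_perp_pair (hQ : (polarBilin Q).Nondegenerate) {v e : ι → F} (he : e ∉ Submodule.span F {v})
    (hv : v ≠ 0) : Module.finrank F (perp Q (Submodule.span F {v, e})) + 2 = Fintype.card ι := by
  have hli : LinearIndependent F ![v, e] := by
    rw [LinearIndependent.pair_iff' hv]
    exact fun a h => he (Submodule.mem_span_singleton.mpr ⟨a, h⟩)
  have h2 : Module.finrank F (Submodule.span F ({v, e} : Set (ι → F))) = 2 := by
    rw [← Matrix.range_cons_cons_empty v e ![], finrank_span_eq_card hli, Fintype.card_fin]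
  have hle := Submodule.finrank_le (Submodule.span F ({v, e} : Set (ι → F)))
  rw [finrank_perp hQ, h2, Module.finrank_fintype_fun_eq_card] at *
  omega

omit [Fintype F] [DecidableEq ι] in
theorem exists_not_polar_zero (hQ : (polarBilin Q).Nondegenerate) {v e : ι → F}
    (he : e ∉ Submodule.span F {v}) (hv : v ≠ 0) :
    ∃ g ∈ perp Q (Submodule.span F {v}), polar Q g e ≠ 0 := by
  by_contra hne
  push Not at hne
  have hle : perp Q (Submodule.span F {v}) ≤ perp Q (Submodule.span F {v, e}) := fun g hg => by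
    rw [mem_perp_span] at hg ⊢
    rintro u (rfl | rfl)
    · exact hg u rfl
    · exact hne g (mem_perp_span.mpr hg)
  have h1 := Submodule.finrank_mono hle
  have h2 := finrank_perp_pair hQ he hv
  rw [finrank_perp hQ, finrank_span_singleton hv, Module.finrank_fintype_fun_eq_card] at h1
  omega

theorem omega_not_le_subspaceStabilizer (hQ : (polarBilin Q).Nondegenerate) (hn : 5 ≤ Fintype.card ι)
    {E : Submodule F (ι → F)} (hE : ∀ e ∈ E, Q e = 0) (hE3 : 3 ≤ Module.finrank F E)
    {W : Submodule F (ι → F)} (h0 : W ≠ ⊥) (h1 : W ≠ ⊤) :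
    ¬ Cfsg.Geo.omegaGL ⇑Q ≤ Cfsg.Geo.subspaceStabilizer W := by
  intro hle
  have hperp : ∀ v ∈ W, v ≠ 0 → perp Q (Submodule.span F {v}) ≤ W := by
    intro v hv hv0
    have hsing : ∀ d, Q d = 0 → polar Q v d = 0 → d ∈ W := by
      intro d hd hvd
      by_contra hdW
      obtain ⟨g, hg, hgW, -, -⟩ := CfsgLib.Forms.exists_omega_not_mem hQ hn hd hvd hv hv0 hdW
      exact hgW (hle hg)
    let φ : E →ₗ[F] F := ((polarBilin Q) v).comp E.subtype
    have hker : 2 ≤ Module.finrank F (LinearMap.ker φ) := by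
      have h := φ.finrank_range_add_finrank_ker
      have := Submodule.finrank_le (LinearMap.range φ)
      rw [Module.finrank_self] at this
      omega
    obtain ⟨e, he, hev⟩ : ∃ e ∈ E, polar Q v e = 0 ∧ e ∉ Submodule.span F {v} := by
      by_contra h
      push Not at h
      have hle' : (LinearMap.ker φ).map E.subtype ≤ Submodule.span F {v} := by
        rintro _ ⟨e, he, rfl⟩
        exact h e e.2 (by simpa [φ] using he)
      have := Submodule.finrank_mono hle'
      rw [Submodule.finrank_map_subtype_eq, finrank_span_singleton hv0] at this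
      omega
    obtain ⟨g, hg, hge⟩ := exists_not_polar_zero hQ hev.2 hv0
    have heW : e ∈ W := hsing e (hE e he) hev.1
    have hmove : ∀ u ∈ perp Q (Submodule.span F {v}), polar Q u e ≠ 0 → u ∈ W := by
      intro u hu hue
      set r : F := - Q u / polar Q u e
      have hr : Q (u + r • e) = 0 := by
        rw [map_add_smul, hE e he, mul_zero, add_zero, show r * polar Q u e = - Q u from div_mul_cancel₀ _ hue,
          add_neg_cancel]
      have hvr : polar Q v (u + r • e) = 0 := by
        rw [polar_add_right, polar_smul_right, polar_comm Q v u, mem_perp_span.mp hu v rfl, hev.1, smul_zero,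
          add_zero]
      simpa using W.sub_mem (hsing _ hr hvr) (W.smul_mem r heW)
    intro u hu
    by_cases hue : polar Q u e = 0
    · have h2 : polar Q (u + g) e ≠ 0 := by rw [polar_add_left, hue, zero_add]; exact hge
      simpa using W.sub_mem (hmove (u + g) ((perp Q _).add_mem hu hg) h2) (hmove g hg hge)
    · exact hmove u hu hue
  obtain ⟨v, hv, hv0⟩ := W.exists_mem_ne_zero_of_ne_bot h0
  have hlt : Module.finrank F W < Fintype.card ι := by
    have := Submodule.finrank_lt h1
    rwa [Module.finrank_fintype_fun_eq_card] at this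
  have hfin : ∀ w ∈ W, w ≠ 0 → perp Q (Submodule.span F {w}) = W := fun w hw hw0 => by
    refine Submodule.eq_of_le_of_finrank_le (hperp w hw hw0) ?_
    rw [finrank_perp hQ, finrank_span_singleton hw0, Module.finrank_fintype_fun_eq_card]
    omega
  have hW := hfin v hv hv0
  obtain ⟨v', hv', hvv⟩ : ∃ v' ∈ W, v' ∉ Submodule.span F {v} := by
    by_contra h
    push Not at h
    have := Submodule.finrank_mono (show W ≤ Submodule.span F {v} from h)
    rw [finrank_span_singleton hv0] at this
    have h3 : Module.finrank F W = Fintype.card ι - 1 := by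
      rw [← hW, finrank_perp hQ, finrank_span_singleton hv0, Module.finrank_fintype_fun_eq_card]
    omega
  have hv'0 : v' ≠ 0 := fun h => hvv (h ▸ zero_mem _)
  have e := (hW.trans (hfin v' hv' hv'0).symm)
  have := congrArg (perp Q) e
  rw [perp_perp hQ, perp_perp hQ] at this
  exact hvv (this ▸ Submodule.mem_span_singleton_self v')

theorem omega_not_le_decompositionStabilizer (hQ : (polarBilin Q).Nondegenerate) (hn : 5 ≤ Fintype.card ι)
    {E : Submodule F (ι → F)} (hE : ∀ e ∈ E, Q e = 0) (hE2 : 2 ≤ Module.finrank F E) (h2 : (2 : F) ≠ 0)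
    {t : ℕ} {D : Fin t → Submodule F (ι → F)} {b : Fin t → (ι → F)} (hD : ∀ i, D i = Submodule.span F {b i})
    (horth : ∀ i j, i ≠ j → polar Q (b i) (b j) = 0) {i0 : Fin t} (hb0 : Q (b i0) ≠ 0) :
    ¬ Cfsg.Geo.omegaGL ⇑Q ≤ Cfsg.Geo.decompositionStabilizer D := by
  intro hle
  let φ : E →ₗ[F] F := ((polarBilin Q) (b i0)).comp E.subtype
  have hker : LinearMap.ker φ ≠ ⊥ := LinearMap.ker_ne_bot_of_finrank_lt (by rw [Module.finrank_self]; omega)
  obtain ⟨⟨e, heE⟩, he, he0⟩ := Submodule.exists_mem_ne_zero_of_ne_bot hker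
  have hbe : polar Q (b i0) e = 0 := by simpa [φ] using he
  have hind : b i0 ∉ Submodule.span F {e} := by
    rw [Submodule.mem_span_singleton]
    rintro ⟨c, hc⟩
    exact hb0 (by rw [← hc, QuadraticMap.map_smul, hE e heE, smul_zero])
  obtain ⟨g, hg, hgb, -⟩ := CfsgLib.Forms.exists_omega_moving hQ hn (hE e heE) hbe hind
  obtain ⟨π, hπ⟩ : ∃ π : Equiv.Perm (Fin t), ∀ i,
      (D i).map (Matrix.toLin' (g : Matrix ι ι F)) = D (π i) := hle hg
  have hmem : b i0 + e ∈ D (π i0) := by
    rw [← hπ i0, ← hgb]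
    exact ⟨b i0, by rw [SetLike.mem_coe, hD]; exact Submodule.mem_span_singleton_self _, by simp⟩
  rw [hD, Submodule.mem_span_singleton] at hmem
  obtain ⟨r, hr⟩ := hmem
  have h1 := congrArg (fun x => polar Q (b i0) x) hr
  simp only [polar_add_right, polar_smul_right, hbe, add_zero, smul_eq_mul, polar_self, nsmul_eq_mul,
    Nat.cast_ofNat] at h1
  have hπ0 : π i0 = i0 := by
    by_contra hne
    rw [horth _ _ (Ne.symm hne), mul_zero] at h1
    exact mul_ne_zero h2 hb0 h1.symm
  rw [hπ0] at h1 hr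
  simp only [polar_self, nsmul_eq_mul, Nat.cast_ofNat] at h1
  have hr1 : r = 1 := mul_right_cancel₀ (mul_ne_zero h2 hb0) (h1.trans (one_mul _).symm)
  rw [hr1, one_smul] at hr
  exact he0 (Subtype.ext (add_left_cancel (a := b i0) (by simpa using hr.symm)))

theorem omega_not_le_subfieldSubgroup (hQ : (polarBilin Q).Nondegenerate)
    (hn : 5 ≤ Fintype.card ι) {E : Submodule F (ι → F)} (hE : ∀ e ∈ E, Q e = 0) (hE2 : 2 ≤ Module.finrank F E)
    {F₁ : Subfield F} (hF₁ : F₁ ≠ ⊤) (P : GL ι F) :
    ¬ Cfsg.Geo.omegaGL ⇑Q ≤ Cfsg.Geo.subfieldSubgroup F₁ P := by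
  classical
  intro hle
  obtain ⟨d, a, hdE, haE, hind⟩ : ∃ d a, d ∈ E ∧ a ∈ E ∧ LinearIndependent F ![d, a] := by
    obtain ⟨f, hf⟩ := exists_linearIndependent_of_le_finrank hE2
    refine ⟨f 0, f 1, (f 0).2, (f 1).2, ?_⟩
    rw [show ![(f 0 : ι → F), (f 1 : ι → F)] = E.subtype ∘ f from funext fun i => by fin_cases i <;> rfl]
    exact LinearIndependent.map' hf E.subtype E.ker_subtype
  have hd := hE d hdE
  have hpol : ∀ x ∈ E, ∀ y ∈ E, polar Q x y = 0 := fun x hx y hy => by
    rw [polar, hE _ (E.add_mem hx hy), hE x hx, hE y hy]; simp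
  let L : (ι → F) →ₗ[F] (ι → F) :=
    (polarBilin Q a : (ι → F) →ₗ[F] F).smulRight d - (polarBilin Q d : (ι → F) →ₗ[F] F).smulRight a
  set N := LinearMap.toMatrix' L
  have hN : ∀ v, N *ᵥ v = polar Q v a • d - polar Q v d • a := fun v => by
    rw [LinearMap.toMatrix'_mulVec]; simp [L, polar_comm Q v a, polar_comm Q v d]
  have hNN : N * N = 0 := Matrix.ext_iff_mulVec.mpr fun v => by
    rw [← mulVec_mulVec, hN, hN, polar_sub_left, polar_sub_left, polar_smul_left, polar_smul_left, polar_smul_left,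
      polar_smul_left, hpol d hdE a haE, hpol a haE a haE, hpol d hdE d hdE, hpol a haE d hdE]
    simp
  set Pm := (P : Matrix ι ι F)
  set Pi' := ((P⁻¹ : GL ι F) : Matrix ι ι F)
  set N' := Pi' * N * Pm with hN'
  have hN'N' : N' * N' = 0 := by
    calc N' * N' = Pi' * N * (Pm * Pi') * N * Pm := by simp only [hN', mul_assoc]
      _ = Pi' * (N * N) * Pm := by rw [show Pm * Pi' = 1 from P.mul_inv, mul_one]; simp only [mul_assoc]
      _ = 0 := by rw [hNN, mul_zero, zero_mul]
  obtain ⟨p, hC⟩ := CharP.exists F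
  obtain ⟨k, hp, -⟩ := FiniteField.card F p
  haveI := Fact.mk hp
  haveI : ExpChar F p := ExpChar.prime hp
  haveI : Nonempty ι := Fintype.card_pos_iff.mp (by omega)
  haveI : Nontrivial (Matrix ι ι F) := inferInstance
  haveI : CharP (Matrix ι ι F) p := inferInstance
  have hrat : ∀ t : F, ∀ i j, t * N' i j ∈ F₁ := by
    intro t
    have hta : polar Q (t • a) d = 0 := by rw [polar_smul_left, hpol a haE d hdE, smul_zero]
    obtain ⟨g, hg, hgv⟩ := CfsgLib.Forms.exists_omegaGL (CfsgLib.Forms.siegel_mem_commutator hQ hn hd hta)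
    have hgm : (g : Matrix ι ι F) = 1 + t • N := Matrix.ext_iff_mulVec.mpr fun v => by
      rw [hgv]
      show CfsgLib.Forms.siegel Q d (t • a) hd hta v = _
      rw [CfsgLib.Forms.siegel_apply, add_mulVec, one_mulVec, smul_mulVec, hN, QuadraticMap.map_smul, hE a haE,
        polar_smul_right]
      simp only [smul_eq_mul, mul_zero, zero_mul, sub_zero, smul_sub, smul_smul]
      rw [mul_comm (polar Q v d) t]
      abel
    obtain ⟨g₀, c, hc⟩ : ∃ (g₀ : GL ι F₁) (c : Fˣ), ((P⁻¹ * g * P : GL ι F) : Matrix ι ι F) =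
        (c : F) • (g₀ : Matrix ι ι F₁).map Subtype.val := by
      have hgP := hle hg
      rw [Cfsg.Geo.subfieldSubgroup] at hgP
      obtain ⟨y, hy, rfl⟩ := hgP
      haveI : (Cfsg.Geo.scalars ι F).Normal := ⟨fun z hz g => by
        rw [← scalar_comm hz g, mul_inv_cancel_right]; exact hz⟩
      obtain ⟨_, ⟨g₀, rfl⟩, z, hz, rfl⟩ := Subgroup.mem_sup_of_normal_right.mp hy
      obtain ⟨c, hc⟩ := (Cfsg.Geo.mem_scalars_iff z).mp hz
      refine ⟨g₀, c, ?_⟩
      simp only [MulEquiv.coe_toMonoidHom, MulAut.conj_apply]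
      rw [show P⁻¹ * (P * (Matrix.GeneralLinearGroup.map (F₁.subtype : F₁ →+* F) g₀ * z) * P⁻¹) * P =
        Matrix.GeneralLinearGroup.map (F₁.subtype : F₁ →+* F) g₀ * z by group, Units.val_mul, hc,
        mul_smul_comm, mul_one]
      rfl
    have he' : ((P⁻¹ * g * P : GL ι F) : Matrix ι ι F) = 1 + t • N' := by
      rw [Units.val_mul, Units.val_mul, hgm, Matrix.mul_add, mul_one, Matrix.add_mul, P.inv_mul, mul_smul_comm,
        smul_mul_assoc]
    rw [he'] at hc
    have hpow : (1 + t • N') ^ p = 1 := by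
      rw [add_pow_char_of_commute p (Commute.one_left _), one_pow, ← Nat.sub_add_cancel hp.two_le,
        pow_add, pow_two, smul_mul_smul_comm, hN'N', smul_zero, mul_zero, add_zero]
    have hcF : (c : F) ∈ F₁ := by
      have h1 := congrArg (fun M : Matrix ι ι F => M ^ p) hc
      simp only [hpow, smul_pow] at h1
      obtain ⟨i⟩ := (inferInstance : Nonempty ι)
      have hmem : (((g₀ : Matrix ι ι F₁).map Subtype.val) ^ p) i i ∈ F₁ := by
        have := Matrix.map_pow (g₀ : Matrix ι ι F₁) F₁.subtype p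
        rw [show ((g₀ : Matrix ι ι F₁).map Subtype.val) = (g₀ : Matrix ι ι F₁).map F₁.subtype from rfl, ← this]
        exact (((g₀ : Matrix ι ι F₁) ^ p) i i).2
      have h2 := congrFun (congrFun h1 i) i
      simp only [Matrix.smul_apply, Matrix.one_apply_eq, smul_eq_mul] at h2
      have hcp : (c : F) ^ p ∈ F₁ := by
        rw [eq_inv_of_mul_eq_one_left h2.symm]
        exact F₁.inv_mem hmem
      obtain ⟨w, hw⟩ := (Finite.injective_iff_surjective (f := fun x : F₁ => x ^ p)).mp
        (fun x y h => Subtype.ext (frobenius_inj F p (by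
          simpa [frobenius_def] using congrArg Subtype.val h))) ⟨_, hcp⟩
      have : (w : F) = c := frobenius_inj F p (by simpa [frobenius_def] using congrArg Subtype.val hw)
      exact this ▸ w.2
    intro i j
    have h := congrFun (congrFun hc i) j
    rw [Matrix.add_apply, Matrix.smul_apply, Matrix.smul_apply, Matrix.map_apply, smul_eq_mul, smul_eq_mul] at h
    rw [eq_sub_of_add_eq' h]
    refine F₁.sub_mem (F₁.mul_mem hcF (SetLike.coe_mem _)) ?_
    rw [Matrix.one_apply]
    split
    · exact F₁.one_mem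
    · exact F₁.zero_mem
  obtain ⟨i, j, hij⟩ : ∃ i j, N' i j ≠ 0 := by
    by_contra h
    push Not at h
    have h0 : N' = 0 := Matrix.ext fun i j => h i j
    have hN0 : N = 0 := by
      calc N = Pm * N' * Pi' := by
            simp only [hN', ← mul_assoc]; rw [show Pm * Pi' = 1 from P.mul_inv, one_mul, mul_assoc,
              show Pm * Pi' = 1 from P.mul_inv, mul_one]
        _ = 0 := by rw [h0, mul_zero, zero_mul]
    have hd0 : d ∉ (⊥ : Submodule F (ι → F)) := by simpa using hind.ne_zero 0
    obtain ⟨v, -, hv⟩ := CfsgLib.Forms.exists_polar_eq_one hQ hd0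
    rw [polar_comm] at hv
    have h1 := hN v
    rw [hN0, zero_mulVec, hv, one_smul] at h1
    have h2 : (-1 : F) = 0 := (LinearIndependent.pair_iff.mp hind (polar Q v a) (-1) (by
      rw [neg_one_smul, ← sub_eq_add_neg]; exact h1.symm)).2
    simp at h2
  refine hF₁ (eq_top_iff.mpr fun t _ => ?_)
  have h1 := hrat 1 i j
  rw [one_mul] at h1
  have h2 := F₁.div_mem (hrat t i j) h1
  rwa [mul_div_assoc, div_self hij, mul_one] at h2

end CfsgLib.GeoPrime.Orth
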