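import Mathlib
import Cfsg.Agent.GeoPrime.Proper

/-!
Moving the geometric vocabulary along a bijection of index sets.
-/

set_option autoImplicit false

namespace CfsgLib.GeoPrime.Orth

open Matrix

variable {ι κ : Type} [Fintype ι] [DecidableEq ι] [Fintype κ] [DecidableEq κ] {F : Type*} [Field F] (e : κ ≃ ι)

/-- Reindexing of groups. -/
abbrev φ : GL κ F ≃* GL ι F := Cfsg.Geo.glReindex e

/-- Reindexing of vectors. -/
abbrev T : (κ → F) ≃ₗ[F] (ι → F) := LinearEquiv.funCongrLeft F F e.symm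

theorem φ_apply (g : GL κ F) : ((φ e g : GL ι F) : Matrix ι ι F) = (g : Matrix κ κ F).submatrix e.symm e.symm := rfl

theorem T_apply (v : κ → F) (i : ι) : T e v i = v (e.symm i) := rfl

theorem φ_mulVec (g : GL κ F) (v : κ → F) :
    ((φ e g : GL ι F) : Matrix ι ι F) *ᵥ T e v = T e ((g : Matrix κ κ F) *ᵥ v) := by
  funext i
  simp only [φ_apply, T_apply, mulVec, dotProduct, submatrix_apply]
  exact Equiv.sum_comp e.symm fun k => (g : Matrix κ κ F) (e.symm i) k * v k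

theorem scalar_iff (g : GL κ F) : φ e g ∈ Cfsg.Geo.scalars ι F ↔ g ∈ Cfsg.Geo.scalars κ F := by
  rw [Cfsg.Geo.mem_scalars_iff, Cfsg.Geo.mem_scalars_iff]
  constructor
  · rintro ⟨c, hc⟩
    refine ⟨c, Matrix.ext fun i j => ?_⟩
    have h := congrFun (congrFun hc (e i)) (e j)
    rw [φ_apply] at h
    simpa [Matrix.one_apply] using h
  · rintro ⟨c, hc⟩
    refine ⟨c, Matrix.ext fun i j => ?_⟩
    rw [φ_apply, hc]
    simp [Matrix.one_apply]

theorem irreducible_map {G : Subgroup (GL κ F)} (h : Cfsg.Geo.ActsIrreducibly (Cfsg.Geo.matrixSet G)) :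
    Cfsg.Geo.ActsIrreducibly (Cfsg.Geo.matrixSet (G.map (φ e).toMonoidHom)) := by
  rw [irreducible_iff] at h ⊢
  intro W hW
  rcases h (W.comap ((T (F := F) e : (κ → F) ≃ₗ[F] (ι → F)) : (κ → F) →ₗ[F] (ι → F))) (fun g hg v hv => by
    have h1 := hW (φ e g) ⟨g, hg, rfl⟩ _ hv
    rw [LinearEquiv.coe_coe, φ_mulVec] at h1
    exact h1) with h0 | h1
  · left
    rw [eq_bot_iff]
    intro w hw
    obtain ⟨v, rfl⟩ := (T e).surjective w
    have : v ∈ W.comap ((T (F := F) e : (κ → F) ≃ₗ[F] (ι → F)) : (κ → F) →ₗ[F] (ι → F)) := hw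
    rw [h0, Submodule.mem_bot] at this
    simp [this]
  · right
    rw [eq_top_iff]
    intro w _
    obtain ⟨v, rfl⟩ := (T e).surjective w
    exact (h1.ge (Submodule.mem_top : v ∈ ⊤) : v ∈ W.comap ((T (F := F) e : (κ → F) ≃ₗ[F] (ι → F)) : (κ → F) →ₗ[F] (ι → F)))

theorem subfield_map {F₀ : Subfield F} {Q : GL ι F} {g : GL κ F}
    (h : φ e g ∈ Cfsg.Geo.subfieldSubgroup F₀ Q) :
    g ∈ Cfsg.Geo.subfieldSubgroup F₀ ((φ e).symm Q) := by
  rw [Cfsg.Geo.subfieldSubgroup] at h ⊢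
  obtain ⟨y, hy, hyg⟩ := h
  refine ⟨(φ e).symm y, ?_, ?_⟩
  · have hle : ((Matrix.GeneralLinearGroup.map (n := ι) (F₀.subtype : F₀ →+* F)).range ⊔ Cfsg.Geo.scalars ι F).map
        (φ e).symm.toMonoidHom ≤
        (Matrix.GeneralLinearGroup.map (n := κ) (F₀.subtype : F₀ →+* F)).range ⊔ Cfsg.Geo.scalars κ F := by
      rw [Subgroup.map_sup]
      refine sup_le_sup ?_ ?_
      · rintro _ ⟨_, ⟨g₀, rfl⟩, rfl⟩
        exact ⟨(φ (F := F₀) e).symm g₀, rfl⟩
      · rintro _ ⟨z, hz, rfl⟩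
        show (φ e).symm z ∈ _
        rw [← scalar_iff e, MulEquiv.apply_symm_apply]
        exact hz
    exact hle ⟨y, hy, rfl⟩
  · change MulAut.conj ((φ e).symm Q) ((φ e).symm y) = g
    rw [MulAut.conj_apply, ← map_inv, ← map_mul, ← map_mul]
    rw [show Q * y * Q⁻¹ = φ e g from hyg, MulEquiv.symm_apply_apply]

theorem residual_map {H : Subgroup (GL κ F)}
    (h : Cfsg.Geo.InOrthogonalResidualClass (H.map (φ e).toMonoidHom)) :
    Cfsg.Geo.InOrthogonalResidualClass H := by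
  classical
  obtain ⟨P, hc, hno⟩ := h
  set P' := P.comap (φ e).toMonoidHom with hP'
  have hmem : ∀ x, x ∈ P' ↔ φ e x ∈ P := fun x => Iff.rfl
  have hle : P' ≤ H := fun x hx => by
    obtain ⟨y, hy, he⟩ := hc.le ((hmem x).mp hx)
    exact (φ e).injective he ▸ hy
  have hPmap : P'.map (φ e).toMonoidHom = P := by
    rw [hP']; exact Subgroup.map_comap_eq_self_of_surjective (φ e).surjective _
  have hkey : ∀ M : Matrix κ κ F, (∀ x ∈ P', M * (x : Matrix κ κ F) = (x : Matrix κ κ F) * M) →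
      ∃ c : F, M = c • 1 := by
    intro M hM
    obtain ⟨c, hc'⟩ := hc.absIrred.2 (M.submatrix e.symm e.symm) (by
      rintro _ ⟨y, hy, rfl⟩
      obtain ⟨x, rfl⟩ := (φ e).surjective y
      beta_reduce
      rw [φ_apply, submatrix_mul_equiv, submatrix_mul_equiv, hM x hy])
    refine ⟨c, Matrix.ext fun i j => ?_⟩
    have h := congrFun (congrFun hc' (e i)) (e j)
    simpa [Matrix.one_apply] using h
  refine ⟨P', ⟨hle, fun g hg x hx => ?_, ?_, ?_, ?_, fun g hg hcomm => ?_, ⟨?_, ?_⟩, fun F₀ hF₀ hR => ?_⟩, ?_⟩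
  · rw [hmem] at hx ⊢
    rw [map_mul, map_mul, map_inv]
    exact hc.normal _ ⟨g, hg, rfl⟩ _ hx
  · refine Subgroup.map_injective (f := (φ e).toMonoidHom) (φ e).injective ?_
    rw [Subgroup.map_commutator, hPmap, hc.perfect]
  · haveI := hc.simple
    exact MulEquiv.isSimpleGroup (QuotientGroup.congr _ ((Cfsg.Geo.scalars ι F).subgroupOf P) ((φ e).subgroupMap P' |>.trans
      (MulEquiv.subgroupCongr hPmap)) (by
        ext y
        obtain ⟨x, rfl⟩ := ((φ e).subgroupMap P' |>.trans (MulEquiv.subgroupCongr hPmap)).surjective y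
        refine ⟨?_, fun h => ⟨x, ?_, rfl⟩⟩
        · rintro ⟨x', hx', he⟩
          obtain rfl : x' = x := ((φ e).subgroupMap P' |>.trans (MulEquiv.subgroupCongr hPmap)).injective he
          exact (scalar_iff e (x' : GL κ F)).mpr hx'
        · exact (scalar_iff e (x : GL κ F)).mp h))
  · intro hcomm
    refine hc.nonabelian ⟨⟨fun a b => ?_⟩⟩
    obtain ⟨⟨a, ha⟩, rfl⟩ := QuotientGroup.mk'_surjective _ a
    obtain ⟨⟨b, hb⟩, rfl⟩ := QuotientGroup.mk'_surjective _ b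
    obtain ⟨a, rfl⟩ := (φ e).surjective a
    obtain ⟨b, rfl⟩ := (φ e).surjective b
    have h1 := hcomm.is_comm.comm (QuotientGroup.mk (⟨a, ha⟩ : P')) (QuotientGroup.mk (⟨b, hb⟩ : P'))
    rw [← QuotientGroup.mk_mul, ← QuotientGroup.mk_mul, QuotientGroup.eq, Subgroup.mem_subgroupOf] at h1
    rw [QuotientGroup.mk'_apply, QuotientGroup.mk'_apply, ← QuotientGroup.mk_mul, ← QuotientGroup.mk_mul,
      QuotientGroup.eq, Subgroup.mem_subgroupOf]
    have h2 := (scalar_iff e _).mpr h1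
    simpa using h2
  · rw [← scalar_iff e]
    refine hc.centralizer_scalar _ ⟨g, hg, rfl⟩ fun y hy => ?_
    obtain ⟨x, rfl⟩ := (φ e).surjective y
    rw [← map_inv, ← map_inv, ← map_mul, ← map_mul, ← map_mul]
    exact (scalar_iff e _).mpr (hcomm x hy)
  · have h1 := irreducible_map e.symm (G := P) hc.absIrred.1
    rw [irreducible_iff] at h1 ⊢
    refine fun W hW => h1 W ?_
    rintro _ ⟨y, hy, rfl⟩ v hv
    refine hW _ ?_ v hv
    rw [hmem]
    have : φ e ((φ e.symm).toMonoidHom y) = y := Units.ext (by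
      ext i j; simp [φ_apply, MulEquiv.toMonoidHom])
    rw [this]; exact hy
  · exact fun M hM => hkey M fun x hx => hM _ ⟨x, hx, rfl⟩
  · refine hc.no_subfield F₀ hF₀ ?_
    obtain ⟨B, hB⟩ := hR
    refine ⟨φ e B, ?_⟩
    rintro _ ⟨y, hy, rfl⟩ i j
    obtain ⟨x, rfl⟩ := (φ e).surjective y
    have h := hB _ ⟨x, hy, rfl⟩ (e.symm i) (e.symm j)
    beta_reduce
    rw [← map_inv, ← Units.val_mul, ← Units.val_mul, ← map_mul, ← map_mul, φ_apply, submatrix_apply]
    rw [← Units.val_mul, ← Units.val_mul] at h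
    exact h
  · rintro ⟨σ, f, hf, hfix⟩
    refine hno ⟨σ, fun u v => f ((T e).symm u) ((T e).symm v), ⟨hf.ne_refl, hf.involutive, fun x y v => ?_,
      fun c x v => ?_, fun v w => hf.herm _ _, fun v hv => ?_⟩, ?_⟩
    · rw [map_add]; exact hf.add_left _ _ _
    · rw [map_smul]; exact hf.smul_left _ _ _
    · obtain ⟨⟨a, ha⟩, ⟨c, hc'⟩⟩ := hf.nondegenerate ((T e).symm v) (fun h => hv (by
        rw [← (T e).apply_symm_apply v, h, map_zero]))
      exact ⟨⟨T e a, by beta_reduce; rw [LinearEquiv.symm_apply_apply]; exact ha⟩, ⟨T e c, by beta_reduce; rw [LinearEquiv.symm_apply_apply]; exact hc'⟩⟩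
    · rintro _ ⟨y, hy, rfl⟩ u v
      obtain ⟨x, rfl⟩ := (φ e).surjective y
      obtain ⟨u, rfl⟩ := (T e).surjective u
      obtain ⟨v, rfl⟩ := (T e).surjective v
      beta_reduce
      rw [φ_mulVec, φ_mulVec, LinearEquiv.symm_apply_apply, LinearEquiv.symm_apply_apply,
        LinearEquiv.symm_apply_apply, LinearEquiv.symm_apply_apply]
      exact hfix _ ⟨x, hy, rfl⟩ _ _

end CfsgLib.GeoPrime.Orth
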