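import Mathlib
import Cfsg.Agent.Forms.GeoBridge
import Cfsg.Agent.Forms.Standard
import Cfsg.Agent.GeoPrime.Orth.Core
import Cfsg.Agent.GeoPrime.Orth.Proper
import Cfsg.Agent.GeoPrime.Orth.Transport

/-!
Maximal subgroups of `Ω` in odd prime dimension.
-/

set_option autoImplicit false

namespace CfsgLib.GeoPrime.Orth

open QuadraticMap Matrix


variable {F : Type*} [Field F] {ι : Type} [Fintype ι] [DecidableEq ι]

theorem polar_eq_gram (Q : QuadraticForm F (ι → F)) (u v : ι → F) :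
    polar Q u v = u ⬝ᵥ (LinearMap.toMatrix₂' F (polarBilin Q)) *ᵥ v := by
  rw [← Matrix.toLinearMap₂'_apply', Matrix.toLinearMap₂'_toMatrix']
  rfl

omit [Fintype ι] [DecidableEq ι] in
theorem polar_self_two (Q : QuadraticForm F (ι → F)) (u : ι → F) : polar Q u u = 2 * Q u := by
  rw [polar_self, nsmul_eq_mul, Nat.cast_ofNat]

theorem form_conj {n : ℕ} (A G : Matrix (Fin n) (Fin n) F) (u v : Fin n → F) :
    (G *ᵥ u) ⬝ᵥ A *ᵥ (G *ᵥ v) = u ⬝ᵥ (Gᵀ * A * G) *ᵥ v := by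
  rw [mul_assoc, ← mulVec_mulVec, ← mulVec_mulVec, dotProduct_mulVec u, vecMul_transpose]

/-- A maximal subgroup contained in a proper overgroup is the intersection with it. -/
theorem eq_inf_of_max {G : Type*} [Group G] {O H K : Subgroup G} (hH : Cfsg.Geo.IsMaximalIn O H) (hle : H ≤ K)
    (hnot : ¬ O ≤ K) : H = K ⊓ O := by
  rcases hH.2 (K ⊓ O) (le_inf hle hH.1.le) inf_le_right with h | h
  · exact h.symm
  · exact absurd (inf_eq_right.mp h) hnot

/-- The totally singular subspace of the first block. -/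
def sing (F : Type*) [Field F] (m : ℕ) : (Fin m → F) →ₗ[F] (Unit ⊕ (Fin m ⊕ Fin m) → F) where
  toFun v := Sum.elim 0 (Sum.elim v 0)
  map_add' u v := by ext (x | x | x) <;> simp
  map_smul' c v := by ext (x | x | x) <;> simp

theorem sing_singular (m : ℕ) : ∀ e ∈ LinearMap.range (sing F m), CfsgLib.Forms.quadOdd F m e = 0 := by
  rintro _ ⟨v, rfl⟩
  simp [CfsgLib.Forms.coe_quadOdd, Cfsg.quadFormOdd, sing]

theorem finrank_sing (m : ℕ) : Module.finrank F (LinearMap.range (sing F m)) = m := by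
  rw [LinearMap.finrank_range_of_inj, Module.finrank_fin_fun]
  intro u v h
  funext i
  exact congrFun h (Sum.inr (Sum.inl i))

theorem gram_int (m : ℕ) :
    ∃ z : ℤ, (LinearMap.toMatrix₂' F (polarBilin (CfsgLib.Forms.quadOdd F m))).det = (z : F) := by
  set M := LinearMap.toMatrix₂' F (polarBilin (CfsgLib.Forms.quadOdd F m))
  let R : Subring F := (Int.castRingHom F).range
  have hsingle : ∀ i j, (Pi.single i 1 : Unit ⊕ (Fin m ⊕ Fin m) → F) j ∈ R := fun i j => by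
    rw [Pi.single_apply]
    split
    · exact R.one_mem
    · exact R.zero_mem
  have hM : ∀ i j, M i j ∈ R := fun i j => by
    show LinearMap.toMatrix₂' F (polarBilin (CfsgLib.Forms.quadOdd F m)) i j ∈ R
    rw [LinearMap.toMatrix₂'_apply, polarBilin_apply_apply, CfsgLib.Forms.coe_quadOdd, CfsgLib.Forms.polar_odd]
    refine R.add_mem (R.mul_mem (R.mul_mem (natCast_mem R 2) (hsingle _ _)) (hsingle _ _)) (sum_mem fun k _ => ?_)
    exact R.add_mem (R.mul_mem (hsingle _ _) (hsingle _ _)) (R.mul_mem (hsingle _ _) (hsingle _ _))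
  obtain ⟨z, hz⟩ : M.det ∈ R := by
    rw [show M = (Matrix.of fun i j => (⟨M i j, hM i j⟩ : R)).map R.subtype from rfl, ← RingHom.mapMatrix_apply,
      ← RingHom.map_det]
    exact SetLike.coe_mem _
  exact ⟨z, by simpa using hz.symm⟩

variable [Fintype F]

/-- An invariant proper subspace leads to a singular or a non-degenerate even-dimensional one. -/
theorem reducible_cases {Q : QuadraticForm F (ι → F)} (hQ : (polarBilin Q).Nondegenerate) (h2 : (2 : F) ≠ 0)
    (hodd : Odd (Fintype.card ι)) (h5 : 5 ≤ Fintype.card ι) {H : Subgroup (GL ι F)}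
    (hiso : ∀ g ∈ H, ∀ v, Q ((g : Matrix ι ι F) *ᵥ v) = Q v) {W : Submodule F (ι → F)} (hb : W ≠ ⊥) (ht : W ≠ ⊤)
    (hW : ∀ g ∈ H, ∀ v ∈ W, (g : Matrix ι ι F) *ᵥ v ∈ W) :
    (∃ U : Submodule F (ι → F), U ≠ ⊥ ∧ U ≠ ⊤ ∧ Cfsg.Geo.IsTotallySingularQuad (⇑Q) U ∧
        H ≤ Cfsg.Geo.subspaceStabilizer U) ∨
      ∃ X : Submodule F (ι → F), X ≠ ⊥ ∧ X ≠ ⊤ ∧ Even (Module.finrank F X) ∧
        Cfsg.Geo.IsNondegenerateOn (polar ⇑Q) X ∧
        ¬ (Fintype.card F = 3 ∧ Module.finrank F X = 2 ∧ Cfsg.Geo.IsPlusTypeOn (⇑Q) X) ∧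
        H ≤ Cfsg.Geo.subspaceStabilizer X := by
  classical
  have hpol : ∀ g ∈ H, ∀ u v, polar Q ((g : Matrix ι ι F) *ᵥ u) ((g : Matrix ι ι F) *ᵥ v) = polar Q u v :=
    fun g hg u v => by simp only [polar, ← mulVec_add, hiso g hg]
  have hperp : ∀ Y : Submodule F (ι → F), (∀ g ∈ H, ∀ v ∈ Y, (g : Matrix ι ι F) *ᵥ v ∈ Y) →
      ∀ g ∈ H, ∀ v ∈ CfsgLib.Forms.perp Q Y, (g : Matrix ι ι F) *ᵥ v ∈ CfsgLib.Forms.perp Q Y := by
    intro Y hY g hg v hv
    rw [CfsgLib.Forms.mem_perp] at hv ⊢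
    intro u hu
    have h1 := hpol g hg v (((g⁻¹ : GL ι F) : Matrix ι ι F) *ᵥ u)
    rw [mulVec_mulVec, show (g : Matrix ι ι F) * ((g⁻¹ : GL ι F) : Matrix ι ι F) = 1 from g.mul_inv,
      one_mulVec] at h1
    rw [h1]
    exact hv _ (hY _ (H.inv_mem hg) u hu)
  have hstab : ∀ Y : Submodule F (ι → F), (∀ g ∈ H, ∀ v ∈ Y, (g : Matrix ι ι F) *ᵥ v ∈ Y) →
      H ≤ Cfsg.Geo.subspaceStabilizer Y :=
    fun Y hY g hg => CfsgLib.Forms.mem_subspaceStabilizer_of_le (hY g hg)
  by_cases hrad : W ⊓ CfsgLib.Forms.perp Q W = ⊥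
  swap
  · refine Or.inl ⟨W ⊓ CfsgLib.Forms.perp Q W, hrad, fun h => ht (top_le_iff.mp (h ▸ inf_le_left)), fun u hu => ?_,
      hstab _ fun g hg v hv => ⟨hW g hg v hv.1, hperp W hW g hg v hv.2⟩⟩
    have h := (CfsgLib.Forms.mem_perp.mp hu.2) u hu.1
    rw [polar_self_two] at h
    exact (mul_eq_zero.mp h).resolve_left h2
  right
  have hsum : Module.finrank F W + Module.finrank F (CfsgLib.Forms.perp Q W) = Fintype.card ι := by
    have := Submodule.finrank_le W
    rw [CfsgLib.Forms.finrank_perp hQ, Module.finrank_fintype_fun_eq_card] at *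
    omega
  have hpb : CfsgLib.Forms.perp Q W ≠ ⊥ := fun h => by
    have := Submodule.finrank_lt ht
    rw [Module.finrank_fintype_fun_eq_card, ← hsum, h, finrank_bot] at this
    omega
  have hpt : CfsgLib.Forms.perp Q W ≠ ⊤ := fun h => hb (by rw [h, inf_top_eq] at hrad; exact hrad)
  obtain ⟨X, hXb, hXt, hXe, hXd, hX⟩ : ∃ X : Submodule F (ι → F), X ≠ ⊥ ∧ X ≠ ⊤ ∧ Even (Module.finrank F X) ∧
      X ⊓ CfsgLib.Forms.perp Q X = ⊥ ∧ ∀ g ∈ H, ∀ v ∈ X, (g : Matrix ι ι F) *ᵥ v ∈ X := by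
    rcases Nat.even_or_odd (Module.finrank F W) with he | ho
    · exact ⟨W, hb, ht, he, hrad, hW⟩
    · refine ⟨CfsgLib.Forms.perp Q W, hpb, hpt, ?_, by rwa [CfsgLib.Forms.perp_perp hQ, inf_comm], hperp W hW⟩
      rw [← hsum, Nat.odd_add] at hodd
      exact hodd.mp ho
  have hnd : ∀ Y : Submodule F (ι → F), Y ⊓ CfsgLib.Forms.perp Q Y = ⊥ → Cfsg.Geo.IsNondegenerateOn (polar ⇑Q) Y := by
    intro Y hY w hw hw0
    obtain ⟨x, hx, hxw⟩ : ∃ x ∈ Y, polar Q w x ≠ 0 := by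
      by_contra h
      push Not at h
      have : w ∈ Y ⊓ CfsgLib.Forms.perp Q Y := ⟨hw, CfsgLib.Forms.mem_perp.mpr h⟩
      rw [hY, Submodule.mem_bot] at this
      exact hw0 this
    exact ⟨⟨x, hx, by rwa [polar_comm]⟩, ⟨x, hx, hxw⟩⟩
  by_cases hexc : Fintype.card F = 3 ∧ Module.finrank F X = 2 ∧ Cfsg.Geo.IsPlusTypeOn (⇑Q) X
  swap
  · exact ⟨X, hXb, hXt, hXe, hnd X hXd, hexc, hstab X hX⟩
  obtain ⟨h3, hX2, U, hUX, hUs, hU⟩ := hexc
  obtain ⟨e, he, he0⟩ : ∃ e ∈ U, e ≠ 0 := U.exists_mem_ne_zero_of_ne_bot fun h => by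
    rw [h, finrank_bot, hX2] at hU
    omega
  have hQe : Q e = 0 := hUs e he
  obtain ⟨x, hx, hex⟩ := (hnd X hXd e (hUX he) he0).2
  obtain ⟨f₁, hf₁X, hef1⟩ : ∃ y ∈ X, polar Q e y = 1 :=
    ⟨(polar Q e x)⁻¹ • x, X.smul_mem _ hx, by rw [polar_smul_right, smul_eq_mul, inv_mul_cancel₀ hex]⟩
  have hee : polar Q e e = 0 := by rw [polar_self_two, hQe, mul_zero]
  obtain ⟨f, hf⟩ : ∃ f, f = f₁ - Q f₁ • e := ⟨_, rfl⟩
  have hef : polar Q e f = 1 := by rw [hf, polar_sub_right, polar_smul_right, hee, smul_zero, sub_zero, hef1]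
  have hQf : Q f = 0 := by
    rw [hf, CfsgLib.Forms.map_sub', QuadraticMap.map_smul, hQe, polar_smul_right, polar_comm Q f₁ e, hef1]
    simp
  have hfX : f ∈ X := hf ▸ X.sub_mem hf₁X (X.smul_mem _ (hUX he))
  have hQab : ∀ a b : F, Q (a • e + b • f) = a * b := fun a b => by
    rw [QuadraticMap.map_add ⇑Q, QuadraticMap.map_smul, QuadraticMap.map_smul, hQe, hQf, polar_smul_left,
      polar_smul_right, hef]
    simp
  have hli : LinearIndependent F ![e, f] := by
    rw [LinearIndependent.pair_iff' he0]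
    intro a h
    rw [← h, polar_smul_right, hee, smul_zero] at hef
    exact zero_ne_one hef
  have hspan : Submodule.span F ({e, f} : Set (ι → F)) = X := by
    refine Submodule.eq_of_le_of_finrank_le ?_ ?_
    · rw [Submodule.span_le]
      rintro v (rfl | rfl)
      · exact hUX he
      · exact hfX
    · rw [← Matrix.range_cons_cons_empty e f ![], finrank_span_eq_card hli, Fintype.card_fin, hX2]
  set w := e + f
  have hQw : Q w = 1 := by
    have := hQab 1 1
    rwa [one_smul, one_smul, one_mul] at this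
  have hw0 : w ≠ 0 := fun h => by rw [h, QuadraticMap.map_zero] at hQw; exact zero_ne_one hQw
  have hline : ∀ g ∈ H, ∀ v ∈ Submodule.span F {w}, (g : Matrix ι ι F) *ᵥ v ∈ Submodule.span F {w} := by
    intro g hg v hv
    obtain ⟨c, rfl⟩ := Submodule.mem_span_singleton.mp hv
    rw [mulVec_smul]
    refine Submodule.smul_mem _ c ?_
    have hgw : (g : Matrix ι ι F) *ᵥ w ∈ X := hX g hg w (X.add_mem (hUX he) hfX)
    rw [← hspan, Submodule.mem_span_pair] at hgw
    obtain ⟨a, b, hab⟩ := hgw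
    have h1 : a * b = 1 := by rw [← hQab, hab, hiso g hg, hQw]
    have ha : a ≠ 0 := fun h => by rw [h, zero_mul] at h1; exact zero_ne_one h1
    have haa : a * a = 1 := by
      have := FiniteField.pow_card_sub_one_eq_one a ha
      rwa [h3, show 3 - 1 = 2 from rfl, _root_.sq] at this
    rw [mul_left_cancel₀ ha (h1.trans haa.symm)] at hab
    rw [← hab, ← smul_add]
    exact Submodule.smul_mem _ _ (Submodule.mem_span_singleton_self w)
  have hfr : Module.finrank F (CfsgLib.Forms.perp Q (Submodule.span F {w})) = Fintype.card ι - 1 := by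
    rw [CfsgLib.Forms.finrank_perp hQ, finrank_span_singleton hw0, Module.finrank_fintype_fun_eq_card]
  refine ⟨CfsgLib.Forms.perp Q (Submodule.span F {w}), fun h => ?_, fun h => ?_, ?_, hnd _ ?_, fun h => ?_,
    hstab _ (hperp _ hline)⟩
  · rw [h, finrank_bot] at hfr; omega
  · rw [h, finrank_top, Module.finrank_fintype_fun_eq_card] at hfr; omega
  · rw [hfr]; exact Nat.Odd.sub_odd hodd odd_one
  · rw [CfsgLib.Forms.perp_perp hQ, eq_bot_iff]
    rintro v ⟨hv, hv'⟩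
    obtain ⟨c, rfl⟩ := Submodule.mem_span_singleton.mp hv'
    have := CfsgLib.Forms.mem_perp.mp hv w (Submodule.mem_span_singleton_self w)
    rw [polar_smul_left, polar_self_two, hQw, mul_one, smul_eq_mul] at this
    simp [(mul_eq_zero.mp this).resolve_right h2]
  · rw [hfr] at h; omega

/-- The conclusion in odd prime dimension. -/
theorem omega_odd_cases (hoddF : Odd (Fintype.card F)) (m : ℕ) (hm : 3 ≤ m) (hp : (2 * m + 1).Prime)
    (H : Subgroup (GL (Unit ⊕ (Fin m ⊕ Fin m)) F))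
    (hH : Cfsg.Geo.IsMaximalIn (Cfsg.Geo.omegaGL (Cfsg.quadFormOdd m F)) H) :
    (∃ W : Submodule F (Unit ⊕ (Fin m ⊕ Fin m) → F), W ≠ ⊥ ∧
      Cfsg.Geo.IsTotallySingularQuad (Cfsg.quadFormOdd m F) W ∧
      H = Cfsg.Geo.subspaceStabilizer W ⊓ Cfsg.Geo.omegaGL (Cfsg.quadFormOdd m F)) ∨
    (∃ W : Submodule F (Unit ⊕ (Fin m ⊕ Fin m) → F), W ≠ ⊥ ∧ Even (Module.finrank F W) ∧
      Cfsg.Geo.IsNondegenerateOn (polar (Cfsg.quadFormOdd m F)) W ∧
      ¬ (Fintype.card F = 3 ∧ Module.finrank F W = 2 ∧ Cfsg.Geo.IsPlusTypeOn (Cfsg.quadFormOdd m F) W) ∧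
      H = Cfsg.Geo.subspaceStabilizer W ⊓ Cfsg.Geo.omegaGL (Cfsg.quadFormOdd m F)) ∨
    ((Fintype.card F).Prime ∧ ∃ D : Fin (2 * m + 1) → Submodule F (Unit ⊕ (Fin m ⊕ Fin m) → F),
      Cfsg.Geo.IsOrthogonalMDecomposition (Cfsg.quadFormOdd m F) 1 D ∧
      H = Cfsg.Geo.decompositionStabilizer D ⊓ Cfsg.Geo.omegaGL (Cfsg.quadFormOdd m F)) ∨
    (∃ (F₀ : Subfield F) (r : ℕ) (P : GL (Unit ⊕ (Fin m ⊕ Fin m)) F), r.Prime ∧
      Fintype.card F = Nat.card F₀ ^ r ∧ Cfsg.Geo.IsQuadFormRationalStructure (Cfsg.quadFormOdd m F) F₀ P ∧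
      H = Cfsg.Geo.subfieldSubgroup F₀ P ⊓ Cfsg.Geo.omegaGL (Cfsg.quadFormOdd m F)) ∨
    Cfsg.Geo.InOrthogonalResidualClass H := by
  classical
  have h2 : (2 : F) ≠ 0 := Ring.two_ne_zero fun h2 => by
    have := FiniteField.even_card_iff_char_two.mp h2
    rw [Nat.odd_iff] at hoddF
    omega
  set Q := CfsgLib.Forms.quadOdd F m
  have hQ : (polarBilin Q).Nondegenerate := CfsgLib.Forms.nondegenerate_quadOdd m h2
  rw [← CfsgLib.Forms.coe_quadOdd] at hH ⊢
  have hcard : Fintype.card (Unit ⊕ (Fin m ⊕ Fin m)) = 2 * m + 1 := by simp; omega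
  have h5 : 5 ≤ Fintype.card (Unit ⊕ (Fin m ⊕ Fin m)) := by omega
  have hE := sing_singular (F := F) m
  have hE3 : 3 ≤ Module.finrank F (LinearMap.range (sing F m)) := by rw [finrank_sing]; exact hm
  have hiso : ∀ g ∈ H, ∀ v, Q ((g : Matrix _ _ F) *ᵥ v) = Q v := by
    intro g hg
    obtain ⟨x, -, rfl⟩ := CfsgLib.Forms.mem_omegaGL.mp (hH.1.le hg)
    exact CfsgLib.Forms.mem_isometryGroup.mp x.2
  by_cases hirr : Cfsg.Geo.ActsIrreducibly (Cfsg.Geo.matrixSet H)
  swap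
  · rw [irreducible_iff] at hirr
    push Not at hirr
    obtain ⟨W, hW, hb, ht⟩ := hirr
    rcases reducible_cases hQ h2 ⟨m, hcard⟩ h5 hiso hb ht hW with
      ⟨U, hUb, hUt, hUs, hle⟩ | ⟨X, hXb, hXt, hXe, hXd, hXx, hle⟩
    · exact Or.inl ⟨U, hUb, hUs, eq_inf_of_max hH hle (omega_not_le_subspaceStabilizer hQ h5 hE hE3 hUb hUt)⟩
    · exact Or.inr (Or.inl ⟨X, hXb, hXe, hXd, hXx,
        eq_inf_of_max hH hle (omega_not_le_subspaceStabilizer hQ h5 hE hE3 hXb hXt)⟩)
  obtain ⟨e⟩ : Nonempty ((Unit ⊕ (Fin m ⊕ Fin m)) ≃ Fin (2 * m + 1)) := ⟨Fintype.equivFinOfCardEq hcard⟩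
  set M := LinearMap.toMatrix₂' F (polarBilin Q) with hM
  set A := M.submatrix e.symm e.symm with hA
  have hpolA : ∀ u v, polar Q u v = T e u ⬝ᵥ A *ᵥ T e v := by
    intro u v
    rw [polar_eq_gram, ← hM, hA]
    simp only [dotProduct, mulVec, submatrix_apply, T_apply]
    rw [← Equiv.sum_comp e.symm]
    exact Finset.sum_congr rfl fun i _ => by rw [← Equiv.sum_comp e.symm]
  have hsymmM : Mᵀ = M := by
    ext i j
    rw [transpose_apply, hM, LinearMap.toMatrix₂'_apply, LinearMap.toMatrix₂'_apply, polarBilin_apply_apply,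
      polarBilin_apply_apply, polar_comm]
  have d : ODat A := by
    refine ⟨by rw [hA, transpose_submatrix, hsymmM], ?_, ?_, h2⟩
    · rw [hA, det_submatrix_equiv_self]
      intro h0
      obtain ⟨v, hv0, hv⟩ := exists_mulVec_eq_zero_iff.mpr h0
      refine hv0 (CfsgLib.Forms.polar_ext hQ fun y => ?_)
      rw [polar_comm, polar_eq_gram, ← hM, hv, dotProduct_zero]
    · rw [hA, det_submatrix_equiv_self]
      exact gram_int m
  have hOrt : ∀ g' ∈ H.map (φ e).toMonoidHom, Ort A g' := by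
    rintro _ ⟨g, hg, rfl⟩
    refine Matrix.ext fun i j => ?_
    obtain ⟨u, hu⟩ := (T (F := F) e).surjective (Pi.single i 1)
    obtain ⟨v, hv⟩ := (T (F := F) e).surjective (Pi.single j 1)
    have h1 : polar Q ((g : Matrix _ _ F) *ᵥ u) ((g : Matrix _ _ F) *ᵥ v) = polar Q u v := by
      simp only [polar, ← mulVec_add, hiso g hg]
    rw [hpolA, hpolA, ← φ_mulVec, ← φ_mulVec, hu, hv, form_conj, single_one_dotProduct, single_one_dotProduct,
      mulVec_single_one, mulVec_single_one] at h1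
    exact h1
  rcases orth_core d hp (by omega) hOrt (irreducible_map e hirr) with
    ⟨hq, b, hb, horth, hb0, hsq⟩ | ⟨F₁, r, Qm, hr, hne, hc, hQm, hle⟩ | hres
  · set b' := b.map (T (F := F) e).symm with hb'
    set D : Fin (2 * m + 1) → Submodule F (Unit ⊕ (Fin m ⊕ Fin m) → F) := fun i => Submodule.span F {b' i}
    have hTb : ∀ i, T e (b' i) = b i := fun i => by rw [hb', Module.Basis.map_apply, LinearEquiv.apply_symm_apply]
    have hval : ∀ i j, polar Q (b' i) (b' j) = b i ⬝ᵥ A *ᵥ b j := fun i j => by rw [hpolA, hTb, hTb]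
    have hort : ∀ i j, i ≠ j → polar Q (b' i) (b' j) = 0 := fun i j h => (hval i j).trans (horth i j h)
    have hnz : ∀ i, polar Q (b' i) (b' i) ≠ 0 := fun i => by
      obtain ⟨a, ha, h⟩ := hsq i
      rw [hval, h]
      exact mul_ne_zero (pow_ne_zero _ ha) hb0
    have hQb : ∀ i, Q (b' i) ≠ 0 := fun i h => hnz i (by rw [polar_self_two, h, mul_zero])
    refine Or.inr (Or.inr (Or.inl ⟨hq, D, ⟨⟨⟨by omega, one_pos, fun i => finrank_span_singleton (b'.ne_zero i),
      b'.linearIndependent.iSupIndep_span_singleton, ?_⟩, fun i w hw hw0 => ?_, fun i j hij u hu v hv => ?_⟩,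
      fun i j => ?_⟩, eq_inf_of_max hH (fun g hg => ?_) (omega_not_le_decompositionStabilizer hQ h5 hE (by omega) h2
        (b := b') (fun i => rfl) hort (i0 := 0) (hQb 0))⟩))
    · rw [show iSup D = Submodule.span F (Set.range b') from Submodule.span_range_eq_iSup.symm, b'.span_eq]
    · obtain ⟨c, rfl⟩ := Submodule.mem_span_singleton.mp hw
      have hc : c ≠ 0 := fun h => hw0 (by rw [h, zero_smul])
      refine ⟨⟨b' i, Submodule.mem_span_singleton_self _, ?_⟩, ⟨b' i, Submodule.mem_span_singleton_self _, ?_⟩⟩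
      · rw [polar_smul_right, smul_eq_mul]; exact mul_ne_zero hc (hnz i)
      · rw [polar_smul_left, smul_eq_mul]; exact mul_ne_zero hc (hnz i)
    · obtain ⟨c, rfl⟩ := Submodule.mem_span_singleton.mp hu
      obtain ⟨c', rfl⟩ := Submodule.mem_span_singleton.mp hv
      rw [polar_smul_left, polar_smul_right, hort i j hij, smul_zero, smul_zero]
    · obtain ⟨a, ha, hai⟩ := hsq i
      obtain ⟨a', ha', haj⟩ := hsq j
      set t := a / a'
      have ht : t ≠ 0 := div_ne_zero ha ha'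
      have htQ : t ^ 2 * Q (b' j) = Q (b' i) := mul_left_cancel₀ h2 (by
        rw [← mul_assoc, mul_comm 2 (t ^ 2), mul_assoc, ← polar_self_two, ← polar_self_two, hval, hval, hai, haj]
        simp only [t]
        field_simp)
      refine ⟨(LinearEquiv.toSpanNonzeroSingleton F _ (b' i) (b'.ne_zero i)).symm.trans
        ((LinearEquiv.smulOfNeZero F F t ht).trans
          (LinearEquiv.toSpanNonzeroSingleton F _ (b' j) (b'.ne_zero j))), fun w => ?_⟩
      obtain ⟨c, rfl⟩ := (LinearEquiv.toSpanNonzeroSingleton F _ (b' i) (b'.ne_zero i)).surjective w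
      simp only [LinearEquiv.trans_apply, LinearEquiv.symm_apply_apply]
      show Q ((t * c) • b' j) = Q (c • b' i)
      rw [QuadraticMap.map_smul, QuadraticMap.map_smul, ← htQ, smul_eq_mul, smul_eq_mul]
      ring
    · obtain ⟨c, τ, hc0, hcτ⟩ := exists_monomial (hb ⟨g, hg, rfl⟩)
      refine ⟨τ, fun i => ?_⟩
      show Submodule.map _ (Submodule.span F {b' i}) = Submodule.span F {b' (τ i)}
      have h1 : (g : Matrix _ _ F) *ᵥ b' i = c i • b' (τ i) := (T (F := F) e).injective (by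
        rw [← φ_mulVec, map_smul, hTb, hTb]; exact hcτ i)
      rw [Submodule.map_span, Set.image_singleton, Matrix.toLin'_apply, h1,
        Submodule.span_singleton_smul_eq (IsUnit.mk0 _ (hc0 i))]
  · set P := (φ (F := F) e).symm Qm with hP
    refine Or.inr (Or.inr (Or.inr (Or.inl ⟨F₁, r, P, hr, hc, fun u hu => ?_,
      eq_inf_of_max hH (fun g hg => subfield_map e (hle ⟨g, hg, rfl⟩))
        (omega_not_le_subfieldSubgroup hQ h5 hE (by omega) hne P)⟩)))
    have h1 : T e ((P : Matrix _ _ F) *ᵥ u) = (Qm : Matrix _ _ F) *ᵥ T e u := by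
      rw [← φ_mulVec, hP, MulEquiv.apply_symm_apply]
    have h2' : 2 * Q ((P : Matrix _ _ F) *ᵥ u) ∈ F₁ := by
      rw [← polar_self_two, hpolA, h1, form_conj]
      refine sum_mem fun i _ => F₁.mul_mem (hu (e.symm i)) ?_
      simp only [Matrix.mulVec, dotProduct, T_apply]
      exact sum_mem fun j _ => F₁.mul_mem (hQm i j) (hu (e.symm j))
    have h22 : (2 : F) ∈ F₁ := natCast_mem F₁ 2
    have h3 := F₁.mul_mem (F₁.inv_mem h22) h2'
    rwa [inv_mul_cancel_left₀ h2] at h3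
  · exact Or.inr (Or.inr (Or.inr (Or.inr (residual_map e hres))))

end CfsgLib.GeoPrime.Orth
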